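import Cfsg.Agent.Lib.Geometric.SympType.Sys

/-!
The splitting of a system along two singular labels with product one.
-/

set_option autoImplicit false

namespace CfsgLib.Geometric.SympType

open Matrix

variable {k : ℕ} {ι : Type} [Fintype ι] [DecidableEq ι] {F : Type*} [Field F]

/-- The index type of one block. -/
abbrev K (k : ℕ) := Fin (2 ^ k)

/-- Coordinates in which `P a` is diagonal, `P u` swaps the two blocks and the labels orthogonal to
both act by the same matrices of the smaller system `T` on the two blocks. -/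
structure Split (S : Sys (k + 1) ι F) (a u : L (k + 1)) where
  q_a : S.q a = 0
  q_u : S.q u = 0
  B_au : S.B a u = 1
  T : Sys k (K k) F
  φ : L k →ₗ[ZMod 2] L (k + 1)
  φ_inj : Function.Injective φ
  q_φ : ∀ y, S.q (φ y) = T.q y
  perp : ∀ y, S.B a (φ y) = 0 ∧ S.B u (φ y) = 0
  cases : ∀ w, ∃ (y : L k) (d e : ZMod 2), w = φ y + d • a + e • u
  E : ((K k ⊕ K k) → F) ≃ₗ[F] (ι → F)
  Φ : Matrix ι ι F ≃ₐ[F] Matrix (K k ⊕ K k) (K k ⊕ K k) F
  Φ_spec : ∀ X z, X *ᵥ E z = E (Φ X *ᵥ z)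
  f_E : ∀ z z', S.f (E z) (E z') =
    T.f (z ∘ Sum.inl) (z' ∘ Sum.inl) + T.f (z ∘ Sum.inr) (z' ∘ Sum.inr)
  P_a : Φ (S.P a) = fromBlocks 1 0 0 (-1)
  P_u : Φ (S.P u) = fromBlocks 0 1 1 0
  P_φ : ∀ y, Φ (S.P (φ y)) = fromBlocks (T.P y) 0 0 (T.P y)

end CfsgLib.Geometric.SympType
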