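import Cfsg.Agent.Lib.PauliFour.Lines

/-!
The degree of an absolutely irreducible `2`-group of symplectic type: the lines are linearly independent
without any hypothesis on the degree, so the degree squared is the index of the centre.
-/

set_option autoImplicit false
set_option linter.unusedSectionVars false
set_option linter.style.haveILetI false

namespace CfsgLib.Geometric.SympType

open Cfsg.Geo CfsgLib.SmallDim CfsgLib.PauliFour

variable {F : Type*} [Field F] [Finite F] {ι : Type} [Fintype ι] [DecidableEq ι]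
variable {R : Subgroup (GL ι F)}

theorem linearIndependent_lines [Nonempty ι] (hR : IsPauli R) (hR2 : IsPGroup 2 R) (h2 : (2 : F) ≠ 0) :
    LinearIndependent F (rep R) := by
  classical
  haveI : Fintype (R ⧸ Subgroup.center R) := Fintype.ofFinite _
  haveI : Fintype R := Fintype.ofFinite _
  have hcardR : (Fintype.card R : F) ≠ 0 := by
    obtain ⟨n, hn⟩ := IsPGroup.iff_card.1 hR2
    rw [← Nat.card_eq_fintype_card, hn]
    push_cast
    exact pow_ne_zero n h2
  -- the sign of `y` on a line
  have hsgn : ∀ (q : R ⧸ Subgroup.center R) (y : R), ∃ s : F, s * s = 1 ∧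
      ((y : GL ι F) : Matrix ι ι F) * rep R q = s • (rep R q * ((y : GL ι F) : Matrix ι ι F)) := by
    intro q y
    rcases hR.comm _ y.2 _ q.out.2 with h | h
    · exact ⟨1, one_mul 1, by rw [one_smul]; exact h⟩
    · exact ⟨-1, by ring, by rw [neg_one_smul]; exact h⟩
  choose s hs1 hs using hsgn
  have hne : ∀ (q : R ⧸ Subgroup.center R) (y : R),
      rep R q * ((y : GL ι F) : Matrix ι ι F) ≠ 0 := fun q y h =>
    ((q.out : GL ι F) * (y : GL ι F)).ne_zero (by simpa [rep] using h)
  have hsmul : ∀ q y y', s q (y * y') = s q y * s q y' := by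
    intro q y y'
    apply smul_left_injective F (hne q (y * y'))
    show s q (y * y') • _ = (s q y * s q y') • _
    rw [← hs q (y * y'), Subgroup.coe_mul, Units.val_mul, mul_assoc, hs q y', Matrix.mul_smul, ← mul_assoc,
      hs q y, Matrix.smul_mul, smul_smul, mul_comm (s q y'), mul_assoc]
  have horth : ∀ p q, p ≠ q → ∑ y : R, s p y * s q y = 0 := by
    intro p q hpq
    obtain ⟨y0, hy0⟩ : ∃ y0 : R, s p y0 * s q y0 ≠ 1 := by
      by_contra! h
      apply hpq
      rw [← QuotientGroup.out_eq' p, ← QuotientGroup.out_eq' q, QuotientGroup.eq,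
        Subgroup.mem_center_iff]
      intro y
      refine Subtype.ext (Units.ext ?_)
      have hpy : ((y : GL ι F) : Matrix ι ι F) * ((((p.out : R) : GL ι F))⁻¹ : GL ι F) =
          s p y • (((((p.out : R) : GL ι F))⁻¹ : GL ι F) * ((y : GL ι F) : Matrix ι ι F)) := by
        have h1 := congrArg (fun X => (((((p.out : R) : GL ι F))⁻¹ : GL ι F) : Matrix ι ι F) * X *
          (((((p.out : R) : GL ι F))⁻¹ : GL ι F) : Matrix ι ι F)) (hs p y)
        simp only [rep, Matrix.mul_smul, Matrix.smul_mul, ← mul_assoc] at h1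
        rw [Units.inv_mul, one_mul, mul_assoc _ ((p.out : GL ι F) : Matrix ι ι F), Units.mul_inv, mul_one] at h1
        rw [h1, smul_smul, hs1, one_smul]
      simp only [Subgroup.coe_mul, InvMemClass.coe_inv, Units.val_mul]
      rw [← mul_assoc, hpy, Matrix.smul_mul, mul_assoc, show ((y : GL ι F) : Matrix ι ι F) *
        ((q.out : GL ι F) : Matrix ι ι F) = _ from hs q y, Matrix.mul_smul, smul_smul, h y, one_smul,
        ← mul_assoc]
      rfl
    have key : (s p y0 * s q y0) * ∑ y : R, s p y * s q y = ∑ y : R, s p y * s q y := by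
      rw [Finset.mul_sum]
      refine Fintype.sum_equiv (Equiv.mulLeft y0) _ _ fun y => ?_
      rw [Equiv.coe_mulLeft, hsmul, hsmul]
      ring
    by_contra hS
    exact hy0 (mul_right_cancel₀ hS (key.trans (one_mul _).symm))
  rw [Fintype.linearIndependent_iff]
  intro g hg q
  have h : ∀ y : R, (∑ p, (g p * s p y) • rep R p) = 0 := by
    intro y
    have h1 : ((y : GL ι F) : Matrix ι ι F) * (∑ p, g p • rep R p) *
        (((y : GL ι F)⁻¹ : GL ι F) : Matrix ι ι F) = 0 := by rw [hg, mul_zero, zero_mul]
    rw [Finset.mul_sum, Finset.sum_mul] at h1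
    rw [← h1]
    refine Finset.sum_congr rfl fun p _ => ?_
    rw [Matrix.mul_smul, hs p y, smul_smul, Matrix.smul_mul, mul_assoc, Units.mul_inv, mul_one]
  have h2' : ∑ y : R, s q y • (∑ p, (g p * s p y) • rep R p) = 0 :=
    Finset.sum_eq_zero fun y _ => by rw [h y, smul_zero]
  simp only [Finset.smul_sum, smul_smul] at h2'
  rw [Finset.sum_comm, Finset.sum_eq_single q] at h2'
  · rw [← Finset.sum_smul] at h2'
    have : ∑ y : R, s q y * (g q * s q y) = (Fintype.card R : F) * g q := by
      rw [Finset.sum_congr rfl fun y _ => show s q y * (g q * s q y) = g q by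
        rw [mul_comm (g q), ← mul_assoc, hs1, one_mul], Finset.sum_const, Finset.card_univ, nsmul_eq_mul]
    rw [this] at h2'
    exact (mul_eq_zero.1 ((smul_eq_zero.1 h2').resolve_right ((q.out : GL ι F)).ne_zero)).resolve_left hcardR
  · intro p _ hp
    rw [← Finset.sum_smul, show ∑ y : R, s q y * (g p * s p y) = g p * ∑ y : R, s p y * s q y by
      rw [Finset.mul_sum]; exact Finset.sum_congr rfl fun y _ => by ring, horth p q hp, mul_zero, zero_smul]
  · simp

/-- The index of the centre is the square of the degree. -/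
theorem card_lines_eq [Nonempty ι] (hR : IsPauli R) (hR2 : IsPGroup 2 R) (h2 : (2 : F) ≠ 0) :
    Nat.card (R ⧸ Subgroup.center R) = Fintype.card ι * Fintype.card ι := by
  haveI : Fintype (R ⧸ Subgroup.center R) := Fintype.ofFinite _
  rw [Nat.card_eq_fintype_card, ← Module.finrank_eq_card_basis
    (Module.Basis.mk (linearIndependent_lines hR hR2 h2) (span_rep hR)), Module.finrank_matrix,
    Module.finrank_self, mul_one]

/-- A group of symplectic type of order `2 ^ (1 + 2 k)` with centre of order two acts in degree `2 ^ k`. -/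
theorem card_eq_two_pow [Nonempty ι] (hn : 1 < Fintype.card ι) (hRs : IsSymplecticTypeGroup 2 R)
    (hRi : ActsAbsolutelyIrreducibly (matrixSet R)) (h2 : (2 : F) ≠ 0) {k : ℕ}
    (hcard : Nat.card R = 2 ^ (1 + 2 * k)) (hZ : Nat.card (Subgroup.center R) = 2) :
    Fintype.card ι = 2 ^ k := by
  have h := card_lines_eq (isPauli_of_sympType hn hRs hRi) hRs.pGroup h2
  have hL := Subgroup.card_eq_card_quotient_mul_card_subgroup (Subgroup.center R)
  rw [h, hZ, hcard, pow_add, pow_one, two_mul k, pow_add] at hL
  exact Nat.mul_self_inj.1 (by linarith)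

end CfsgLib.Geometric.SympType
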