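import Cfsg.Agent.Lib.Geometric.SympType.Blocks
import Cfsg.Agent.Lib.Geometric.SympType.Pair
import Cfsg.Agent.Lib.Geometric.SympDecomp

/-!
The big case of a centraliser in an overgroup of the normaliser of a minus type system, and the
properness of the normaliser.
-/

set_option autoImplicit false
set_option linter.unusedSectionVars false
set_option linter.style.haveILetI false

namespace CfsgLib.Geometric.SympType

open Matrix Cfsg.Geo CfsgLib.Geometric
open CfsgLib.Geometric.PauliMax (sgn sgn_zero sgn_one sgn_cases sgn_sq sgn_inj sgn_add sgn_ne_zero)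

variable {k : ℕ} {ι : Type} [Fintype ι] [DecidableEq ι] {F : Type*} [Field F]

/-- Every element of a field of prime order is a natural number. -/
theorem exists_natCast_eq [Fintype F] {p : ℕ} (hp : p.Prime) (hcard : Fintype.card F = p) (c : F) :
    ∃ n : ℕ, (n : F) = c := by
  haveI := Fact.mk hp
  haveI : CharP F p := (CharP.charP_iff_prime_eq_zero hp).mpr (by
    rw [← hcard]; exact FiniteField.cast_card_eq_zero F)
  have hb := (Fintype.bijective_iff_injective_and_card (ZMod.castHom (dvd_refl p) F)).mpr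
    ⟨RingHom.injective _, by rw [ZMod.card, hcard]⟩
  obtain ⟨z, hz⟩ := hb.2 c
  exact ⟨z.val, by rw [← hz, ZMod.castHom_apply, ZMod.natCast_val]⟩

/-- Over a prime field of odd order, a subgroup normalised by all isometries which contains an
involution with totally isotropic planes `⟨v, P v⟩` contains every isometry. -/
theorem isom_le_of_normal [Fintype F] {p : ℕ} (hp : p.Prime) (hcard : Fintype.card F = p)
    (h2 : (2 : F) ≠ 0) {f : (ι → F) → (ι → F) → F} (hf : IsSymplecticForm f) {Lg : Subgroup (GL ι F)}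
    (hn : ∀ h ∈ isom f, ∀ l ∈ Lg, h * l * h⁻¹ ∈ Lg) {P : GL ι F} (hP : P ∈ Lg) (hPi : P ∈ isom f)
    (hP2 : ∀ x, ap P (ap P x) = x) (hsk : ∀ x, f x (ap P x) = 0)
    (hns : ∀ c : F, (P : Matrix ι ι F) ≠ c • 1) : isom f ≤ Lg := by
  obtain ⟨v, hv⟩ : ∃ v : ι → F, ap P v ∉ Submodule.span F {v} := by
    by_contra hc
    push Not at hc
    have hpm : ∀ x, ap P x = x ∨ ap P x = -x := by
      intro x
      obtain ⟨c, hc'⟩ := Submodule.mem_span_singleton.1 (hc x)
      by_cases hx : x = 0
      · subst hx; left; exact ap_zero P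
      have h1 : (c * c) • x = (1 : F) • x := by
        rw [one_smul]
        conv_rhs => rw [← hP2 x, ← hc', ap_smul, ← hc', smul_smul]
      rcases mul_self_eq_one_iff.1 (smul_left_injective F hx h1) with rfl | rfl
      · left; rw [← hc', one_smul]
      · right; rw [← hc', neg_one_smul]
    have hall : (∀ x, ap P x = x) ∨ ∀ x, ap P x = -x := by
      by_contra hcon
      push Not at hcon
      obtain ⟨⟨x, hx⟩, y, hy⟩ := hcon
      have hx' := (hpm x).resolve_left hx
      have hy' := (hpm y).resolve_right hy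
      rcases hpm (x + y) with h | h <;> rw [ap_add, hx', hy'] at h
      · apply hx
        have : (2 : F) • x = 0 := by linear_combination (norm := module) (-1 : F) • h
        rw [hx', (smul_eq_zero.1 this).resolve_left h2, neg_zero]
      · apply hy
        have : (2 : F) • y = 0 := by linear_combination (norm := module) (1 : F) • h
        rw [hy', (smul_eq_zero.1 this).resolve_left h2, neg_zero]
    rcases hall with h | h
    · exact hns 1 (Matrix.ext_of_mulVec_single fun j => by rw [← ap_def, h, one_smul, one_mulVec])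
    · exact hns (-1) (Matrix.ext_of_mulVec_single fun j => by
        rw [← ap_def, h, smul_mulVec, one_mulVec, neg_one_smul])
  set w := ap P v with hwdef
  have hvw : f v w = 0 := hsk v
  have hwv : f w v = 0 := (Symp.eq_zero_comm hf).1 hvw
  have hv0 : v ≠ 0 := fun h => hv (by rw [hwdef, h, ap_zero]; exact Submodule.zero_mem _)
  have hindep : ∀ c d : F, c • v + d • w = 0 → c = 0 ∧ d = 0 := by
    intro c d h
    by_cases hd : d = 0
    · subst hd
      rw [zero_smul, add_zero] at h
      exact ⟨(smul_eq_zero.1 h).resolve_right hv0, rfl⟩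
    · refine absurd (Submodule.mem_span_singleton.2 ⟨-(c / d), ?_⟩) hv
      calc (-(c / d)) • v = (-(c / d)) • v + d⁻¹ • (c • v + d • w) := by rw [h, smul_zero, add_zero]
        _ = w := by match_scalars <;> field_simp <;> ring
  -- the commutator of `P` and a transvection
  obtain ⟨c₀, hc₀⟩ : ∃ c, c = P * Symp.T hf v 1 * P⁻¹ * (Symp.T hf v 1)⁻¹ := ⟨_, rfl⟩
  have hc₀L : c₀ ∈ Lg := by
    rw [hc₀, mul_assoc P, mul_assoc P]
    exact mul_mem hP (hn _ (Symp.T_mem_isom hf v 1) _ (inv_mem hP))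
  have hc₀ap : ∀ x, ap c₀ x = x + f x w • w - f x v • v := by
    intro x
    have hinv : (Symp.T hf v 1)⁻¹ = Symp.T hf v (-1) := inv_eq_of_mul_eq_one_right (by
      rw [Symp.T_mul, add_neg_cancel, Symp.T_zero_right])
    rw [hc₀, Symp.conj_T hf hPi, hinv, ap_mul, Symp.ap_T hf, Symp.ap_T hf, hf.bilinear.add_left,
      hf.bilinear.smul_left, hvw]
    simp only [← hwdef]
    module
  -- a transvection in `Lg`
  set a := w - v with hadef
  have ha0 : a ≠ 0 := fun h => one_ne_zero (hindep (-1) 1 (by rw [← h, hadef]; module)).2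
  have hnot : ∀ c : F, c ≠ 0 → ∀ d : F, c ≠ -d → c • v + d • w ∉ Submodule.span F {a} := by
    intro c _ d hcd h
    obtain ⟨t, ht⟩ := Submodule.mem_span_singleton.1 h
    obtain ⟨e1, e2⟩ := hindep (c + t) (d - t) (by
      rw [hadef] at ht
      linear_combination (norm := module) (-1 : F) • ht)
    exact hcd (by linear_combination e1 + e2)
  have h11 : (1 : F) ≠ -1 := fun h => h2 (by linear_combination h)
  obtain ⟨g, -, hgI, hga, hgx⟩ := Symp.exists_move hf (M := ⊤) (U := Submodule.span F {a})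
    (x := w + v) (y := (2 : F) • w) (fun _ _ _ => trivial)
    (by
      rw [show (2 : F) • w - (w + v) = a by rw [hadef]; module]
      exact (Symp.mem_perp_span hf).2 (hf.alternating a))
    (Symp.exists_perp_ne hf (by
      rw [show w + v = (1 : F) • v + (1 : F) • w by module]
      exact hnot 1 one_ne_zero 1 h11))
    (Symp.exists_perp_ne hf (by
      intro h
      obtain ⟨t, ht⟩ := Submodule.mem_span_singleton.1 h
      obtain ⟨e1, e2⟩ := hindep t (2 - t) (by
        rw [hadef] at ht
        linear_combination (norm := module) (-1 : F) • ht)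
      exact h2 (by linear_combination e1 + e2)))
  replace hga : ap g a = a := hga a (Submodule.mem_span_singleton_self a)
  have hgw : ap g w = (3 / 2 : F) • w - (1 / 2 : F) • v := by
    rw [show w = (2 : F)⁻¹ • ((w + v) + a) by rw [hadef]; match_scalars <;> field_simp <;> ring, ap_smul, ap_add,
      hgx, hga, hadef]
    match_scalars <;> field_simp <;> ring
  have hgv : ap g v = (1 / 2 : F) • w + (1 / 2 : F) • v := by
    rw [show v = (2 : F)⁻¹ • ((w + v) - a) by rw [hadef]; match_scalars <;> field_simp <;> ring, ap_smul, ap_sub,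
      hgx, hga, hadef]
    match_scalars <;> field_simp <;> ring
  have hTa : Symp.T hf a 1 ∈ Lg := by
    have hmem : g * c₀ * g⁻¹ * c₀⁻¹ ∈ Lg := mul_mem (hn g hgI _ hc₀L) (inv_mem hc₀L)
    suffices g * c₀ * g⁻¹ = Symp.T hf a 1 * c₀ by rwa [this, mul_inv_cancel_right] at hmem
    refine gl_ext fun x => ?_
    have hy : ap g⁻¹ x = ap g⁻¹ x := rfl
    have hfw : f (ap g⁻¹ x) w = f x (ap g w) := by
      have := mem_isom_iff.1 hgI (ap g⁻¹ x) w
      rw [ap_ap_inv] at this
      exact this.symm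
    have hfv : f (ap g⁻¹ x) v = f x (ap g v) := by
      have := mem_isom_iff.1 hgI (ap g⁻¹ x) v
      rw [ap_ap_inv] at this
      exact this.symm
    rw [ap_mul, ap_mul, ap_mul, hc₀ap, hc₀ap, ap_sub, ap_add, ap_smul, ap_smul, ap_ap_inv, Symp.ap_T hf,
      hfw, hfv, hgw, hgv]
    simp only [hadef, Symp.sub_right hf, hf.bilinear.add_right, Symp.sub_left hf, hf.bilinear.add_left,
      hf.bilinear.smul_left, hf.bilinear.smul_right, hf.alternating, hvw, hwv]
    match_scalars <;> field_simp <;> ring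
  -- transitivity and the prime field
  refine Symp.isom_le_of_T_mem hf fun b c => ?_
  by_cases hb : b = 0
  · have : Symp.T hf b c = 1 := gl_ext fun x => by rw [Symp.ap_T hf, hb, smul_zero, add_zero, ap_one]
    rw [this]; exact one_mem _
  obtain ⟨n, rfl⟩ := exists_natCast_eq hp hcard c
  obtain ⟨h, -, hhI, -, hha⟩ := Symp.exists_move hf (M := ⊤) (U := ⊥) (x := a) (y := b)
    (fun _ _ _ => trivial) (Symp.mem_perp_bot hf _) (Symp.exists_perp_ne hf (by simpa using ha0))
    (Symp.exists_perp_ne hf (by simpa using hb))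
  have hTb : Symp.T hf b 1 ∈ Lg := by
    have := hn h hhI _ hTa
    rwa [Symp.conj_T hf hhI, hha] at this
  induction n with
  | zero => rw [Nat.cast_zero, Symp.T_zero_right]; exact one_mem _
  | succ n ih => rw [Nat.cast_succ, ← Symp.T_mul]; exact mul_mem ih hTb

namespace Sys

variable (S : Sys k ι F)

theorem self_perp_of_sing (h2 : (2 : F) ≠ 0) {y : L k} (hy : S.q y = 0) (x : ι → F) :
    S.f x (S.P y *ᵥ x) = 0 := by
  have h1 : S.f (S.P y *ᵥ x) (S.P y *ᵥ (S.P y *ᵥ x)) = S.f x (S.P y *ᵥ x) := S.isom_P y _ _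
  rw [mulVec_mulVec, S.sq, hy, sgn_zero, one_smul, one_mulVec, S.hf.skew] at h1
  exact (mul_eq_zero.1 (show (2 : F) * S.f x (S.P y *ᵥ x) = 0 by linear_combination -h1)).resolve_left h2

theorem exists_sing_ne_zero (hk : 2 ≤ k) : ∃ y : L k, y ≠ 0 ∧ S.q y = 0 := by
  obtain ⟨y, -, hy0, hy⟩ := S.quad.exists_singular (W := ⊤) (by
    rw [finrank_top, Module.finrank_fin_fun]; omega)
  exact ⟨y, hy0, hy⟩

theorem gl_ne_scalar {y : L k} (hy : y ≠ 0) (c : F) : (S.P y : Matrix ι ι F) ≠ c • 1 := fun h =>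
  hy (S.eq_of_smul_P (c := c) (by rw [S.zero]; exact h))

/-- The scalar multiples of the system which are isometries. -/
def labelGroup : Subgroup (GL ι F) where
  carrier := {g | g ∈ isom S.f ∧ ∃ (z : L k) (c : F), c ≠ 0 ∧ (g : Matrix ι ι F) = c • S.P z}
  one_mem' := ⟨one_mem _, 0, 1, one_ne_zero, by rw [one_smul, S.zero, Units.val_one]⟩
  mul_mem' := by
    rintro g h ⟨hg, z, c, hc, hgz⟩ ⟨hh, z', c', hc', hhz⟩
    obtain ⟨d, hd, hdz⟩ := S.P_add_coeff z z'
    refine ⟨mul_mem hg hh, z + z', c * c' * d⁻¹, mul_ne_zero (mul_ne_zero hc hc') (inv_ne_zero hd), ?_⟩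
    rw [Units.val_mul, hgz, hhz, hdz, smul_mul_assoc, mul_smul_comm, smul_smul, smul_smul,
      inv_mul_cancel_right₀ hd]
  inv_mem' := by
    rintro g ⟨hg, z, c, hc, hgz⟩
    refine ⟨inv_mem hg, z, c⁻¹ * sgn F (S.q z), mul_ne_zero (inv_ne_zero hc) (sgn_ne_zero _), ?_⟩
    rw [← mul_one ((g⁻¹ : GL ι F) : Matrix ι ι F), Units.inv_mul_eq_iff_eq_mul, hgz, smul_mul_assoc,
      mul_smul_comm, smul_smul, S.sq, smul_smul,
      show c * (c⁻¹ * sgn F (S.q z)) * sgn F (S.q z) = 1 by
        rw [← mul_assoc c, mul_inv_cancel₀ hc, one_mul, sgn_sq],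
      one_smul]

/-- The normaliser is proper. -/
theorem N_ne_isom [Fintype F] {p : ℕ} (hp : p.Prime) (hcard : Fintype.card F = p) (h2 : (2 : F) ≠ 0)
    (hk : 2 ≤ k) : S.N ≠ isom S.f := by
  intro heq
  obtain ⟨y, hy0, hy⟩ := S.exists_sing_ne_zero hk
  have hn : ∀ h ∈ isom S.f, ∀ l ∈ S.labelGroup, h * l * h⁻¹ ∈ S.labelGroup := by
    rintro h hh l ⟨hl, z, c, hc, hlz⟩
    obtain ⟨w, d, hw⟩ := (heq ▸ hh : h ∈ S.N).2 z
    refine ⟨mul_mem (mul_mem hh hl) (inv_mem hh), w, c * d, mul_ne_zero hc (S.coeff_ne_zero hw), ?_⟩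
    rw [Units.val_mul, Units.val_mul, hlz, mul_smul_comm, hw, smul_smul, smul_mul_assoc,
      Units.mul_inv_cancel_right]
  have hall := isom_le_of_normal hp hcard h2 S.hf hn (P := S.gl y)
    ⟨S.gl_mem_isom y, y, 1, one_ne_zero, by rw [one_smul]; rfl⟩ (S.gl_mem_isom y)
    (fun x => by rw [ap_def, ap_def, coe_gl, mulVec_mulVec, S.sq, hy, sgn_zero, one_smul, one_mulVec])
    (S.self_perp_of_sing h2 hy) (S.gl_ne_scalar hy0)
  haveI := S.nonempty
  obtain ⟨i⟩ := S.nonempty
  set v : ι → F := Pi.single i 1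
  have hv0 : v ≠ 0 := by simp [v]
  obtain ⟨-, z, c, hc, hz⟩ := hall (Symp.T_mem_isom S.hf v 1)
  have hap : ∀ x, x + S.f x v • v = c • (S.P z *ᵥ x) := fun x => by
    rw [← smul_mulVec, ← hz, ← ap_def, Symp.ap_T S.hf, one_mul]
  have hne : ∀ x, S.f x v = 0 → S.P z *ᵥ x = c⁻¹ • x := fun x hx => by
    have := hap x
    rw [hx, zero_smul, add_zero] at this
    nth_rewrite 2 [this]
    rw [smul_smul, inv_mul_cancel₀ hc, one_smul]
  have hcv := hne v (S.hf.alternating v)
  have hcc : c * c = sgn F (S.q z) := by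
    have h1 : (sgn F (S.q z)) • v = (c⁻¹ * c⁻¹) • v := by
      rw [← smul_smul, ← hcv, ← mulVec_smul, ← hcv, mulVec_mulVec, S.sq, smul_mulVec, one_mulVec]
    have := smul_left_injective F hv0 h1
    rcases sgn_cases (F := F) (S.q z) with e | e <;> rw [e] at this ⊢ <;> field_simp at this <;>
      first | linear_combination this | linear_combination -this
  obtain ⟨x, hx⟩ := (S.hf.nondegenerate v hv0).1
  -- applying the element twice to `x` gives two translations
  have h3 : c • (S.P z *ᵥ (c • (S.P z *ᵥ x))) = x + ((2 : F) * S.f x v) • v := by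
    rw [← hap x, ← hap, S.hf.bilinear.add_left, S.hf.bilinear.smul_left, S.hf.alternating]
    module
  rw [mulVec_smul, mulVec_mulVec, S.sq, smul_mulVec, one_mulVec, smul_smul, smul_smul, hcc, sgn_sq,
    one_smul] at h3
  have h4 : ((2 : F) * S.f x v) • v = 0 := left_eq_add.1 h3
  exact mul_ne_zero h2 hx ((smul_eq_zero.1 h4).resolve_right hv0)

end Sys

namespace Split

variable {S : Sys (k + 1) ι F} {a u : L (k + 1)} (sp : Split S a u) {M : Subgroup (GL ι F)}

/-- If all isometries of a block are projections, `M` is everything. -/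
theorem eq_top_of_big [Fintype F] (hk : 3 ≤ k) {p : ℕ} (hp : p.Prime) (hcard : Fintype.card F = p)
    (h2 : (2 : F) ≠ 0) (hNM : S.N ≤ M) (hM : M ≤ isom S.f) (hbig : isom sp.T.f ≤ sp.projGroup M) :
    M = isom S.f := by
  obtain ⟨y, hy0, hy⟩ := sp.T.exists_sing_ne_zero (by omega)
  set Lg : Subgroup (GL (K k) F) := M.comap (sp.bd.comp (MonoidHom.inr _ _))
  have hn : ∀ h ∈ isom sp.T.f, ∀ l ∈ Lg, h * l * h⁻¹ ∈ Lg := by
    intro h hh l hl
    obtain ⟨⟨h', B⟩, hB, rfl⟩ := hbig hh
    have hB' := sp.bd_swap_mem hNM (show sp.bd (h', B) ∈ M from hB)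
    have := mul_mem (mul_mem hB' (show sp.bd (1, l) ∈ M from hl)) (inv_mem hB')
    rw [← map_mul, ← map_inv, ← map_mul] at this
    show sp.bd (1, _) ∈ M
    simpa using this
  have hT : isom sp.T.f ≤ Lg := isom_le_of_normal hp hcard h2 sp.T.hf hn (P := sp.T.gl y)
    (show sp.bd (1, sp.T.gl y) ∈ M from hNM (sp.bd_one_gl_mem_N y)) (sp.T.gl_mem_isom y)
    (fun x => by rw [ap_def, ap_def, Sys.coe_gl, mulVec_mulVec, sp.T.sq, hy, sgn_zero, one_smul, one_mulVec])
    (sp.T.self_perp_of_sing h2 hy) (sp.T.gl_ne_scalar hy0)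
  have hblocks : ∀ A B, A ∈ isom sp.T.f → B ∈ isom sp.T.f → sp.bd (A, B) ∈ M := by
    intro A B hA hB
    have := mul_mem (sp.bd_swap_mem hNM (show sp.bd (1, A) ∈ M from hT hA))
      (show sp.bd (1, B) ∈ M from hT hB)
    rwa [← map_mul, Prod.mk_mul_mk, mul_one, one_mul] at this
  have hcomm : ∀ g ∈ isom S.f, (g : Matrix ι ι F) * S.P a = S.P a * (g : Matrix ι ι F) → g ∈ M := by
    intro g hg hga
    obtain ⟨A, B, rfl⟩ := sp.exists_bd h2 hga
    exact hblocks A B (sp.bd_mem_isom.1 hg).1 (sp.bd_mem_isom.1 hg).2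
  -- the two eigenspaces
  let ε : Fin 2 → F := ![1, -1]
  let D : Fin 2 → Submodule F (ι → F) := fun i => LinearMap.ker (Matrix.toLin' (S.P a - ε i • 1))
  have hmem : ∀ i z, z ∈ D i ↔ S.P a *ᵥ z = ε i • z := fun i z => by
    simp [D, sub_eq_zero]
  have hPaE : ∀ z, S.P a *ᵥ sp.E z = sp.E (Sum.elim (z ∘ Sum.inl) (-(z ∘ Sum.inr))) := fun z => by
    rw [sp.Φ_spec, sp.P_a, fromBlocks_mulVec]
    simp [neg_mulVec]
  have hD0 : ∀ x, sp.E (Sum.elim x 0) ∈ D 0 := fun x => by
    rw [hmem, hPaE]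
    simp [ε]
  have hD1 : ∀ x, sp.E (Sum.elim 0 x) ∈ D 1 := fun x => by
    rw [hmem, hPaE]
    simp only [Sum.elim_comp_inl, Sum.elim_comp_inr, show ε 1 = -1 from rfl, neg_one_smul]
    rw [← map_neg]
    congr 1
    ext (i | i) <;> simp
  have hsplit : ∀ z, z = sp.E (Sum.elim ((sp.E.symm z) ∘ Sum.inl) 0) +
      sp.E (Sum.elim 0 ((sp.E.symm z) ∘ Sum.inr)) := fun z => by
    rw [← map_add]
    conv_lhs => rw [← sp.E.apply_symm_apply z]
    congr 1
    ext (i | i) <;> simp
  have hform0 : ∀ i, ∀ z ∈ D i, ∀ j, i ≠ j → ∀ z' ∈ D j, S.f z z' = 0 := by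
    intro i z hz j hij z' hz'
    have h1 : S.f (S.P a *ᵥ z) (S.P a *ᵥ z') = S.f z z' := S.isom_P a z z'
    rw [(hmem i z).1 hz, (hmem j z').1 hz', S.hf.bilinear.smul_left, S.hf.bilinear.smul_right] at h1
    have hεε : ε i * ε j = -1 := by
      fin_cases i <;> fin_cases j <;> first | exact absurd rfl hij | simp [ε]
    exact (mul_eq_zero.1 (show (2 : F) * S.f z z' = 0 by
      linear_combination -h1 + S.f z z' * hεε)).resolve_left h2
  have hdisj : ∀ i j, i ≠ j → Disjoint (D i) (D j) := by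
    intro i j hij
    rw [Submodule.disjoint_def]
    intro z hz hz'
    have he := ((hmem i z).1 hz).symm.trans ((hmem j z).1 hz')
    have hne : ε i - ε j ≠ 0 := by
      have h : ε i - ε j = 2 ∨ ε i - ε j = -2 := by
        fin_cases i <;> fin_cases j <;>
          first | exact absurd rfl hij | (left; norm_num [ε]; done) | (right; norm_num [ε]; done)
      rcases h with h | h <;> rw [h]
      exacts [h2, neg_ne_zero.2 h2]
    have : (ε i - ε j) • z = 0 := by rw [sub_smul, he, sub_self]
    exact (smul_eq_zero.1 this).resolve_left hne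
  have hsup : D 0 ⊔ D 1 = ⊤ := eq_top_iff.2 fun z _ => by
    rw [hsplit z]
    exact Submodule.add_mem_sup (hD0 _) (hD1 _)
  have hfr : ∀ i, Module.finrank F (D i) = 2 ^ k := by
    have h0 : ∀ i, 2 ^ k ≤ Module.finrank F (D i) := by
      intro i
      let m : (K k → F) →ₗ[F] (ι → F) := sp.E.toLinearMap.comp
        (LinearMap.pi (Sum.elim (fun l => if i = 0 then LinearMap.proj l else 0)
          (fun l => if i = 0 then 0 else LinearMap.proj l)))
      have hm : ∀ x, m x = if i = 0 then sp.E (Sum.elim x 0) else sp.E (Sum.elim 0 x) := fun x => by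
        split_ifs with h <;>
        · simp only [m, LinearMap.comp_apply, LinearEquiv.coe_coe]
          congr 1
          ext (l | l) <;> simp [h]
      have hmD : ∀ x, m x ∈ D i := fun x => by
        rw [hm]
        fin_cases i
        · simpa using hD0 x
        · simpa using hD1 x
      have hinj : Function.Injective (m.codRestrict (D i) hmD) := by
        intro x x' h
        have h' := congrArg Subtype.val h
        simp only [LinearMap.codRestrict_apply, hm] at h'
        split_ifs at h' with hi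
        · exact (congrArg (fun z => z ∘ Sum.inl) (sp.E.injective h'))
        · exact (congrArg (fun z => z ∘ Sum.inr) (sp.E.injective h'))
      have := LinearMap.finrank_le_finrank_of_injective hinj
      rwa [Module.finrank_fin_fun] at this
    have htot : Module.finrank F (D 0) + Module.finrank F (D 1) = 2 ^ k + 2 ^ k := by
      rw [← Submodule.finrank_sup_add_finrank_inf_eq, hsup, (hdisj 0 1 (by decide)).eq_bot, finrank_bot,
        finrank_top, Module.finrank_pi, S.card, pow_succ]
      omega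
    intro i
    have := h0 0
    have := h0 1
    rcases (show i = 0 ∨ i = 1 by omega) with rfl | rfl <;> omega
  have hDdec : IsNondegenerateMDecomposition S.f (2 ^ k) D := by
    refine ⟨⟨le_rfl, Nat.two_pow_pos k, hfr, ?_, ?_⟩, fun i z hz hz0 => ?_, fun i j hij z hz z' hz' =>
      hform0 i z hz j hij z' hz'⟩
    · intro i
      fin_cases i
      · exact (hdisj 0 1 (by decide)).mono_right (iSup₂_le fun j hj => by
          fin_cases j
          · exact absurd rfl hj
          · exact le_rfl)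
      · exact (hdisj 1 0 (by decide)).mono_right (iSup₂_le fun j hj => by
          fin_cases j
          · exact le_rfl
          · exact absurd rfl hj)
    · exact eq_top_iff.2 (hsup ▸ sup_le (le_iSup D 0) (le_iSup D 1))
    · have key : ∃ z' ∈ D i, S.f z z' ≠ 0 := by
        by_contra hcon
        push Not at hcon
        obtain ⟨w, hw⟩ := (S.hf.nondegenerate z hz0).2
        have hwmem : w ∈ D 0 ⊔ D 1 := hsup ▸ Submodule.mem_top
        obtain ⟨w0, hw0, w1, hw1, rfl⟩ := Submodule.mem_sup.1 hwmem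
        rw [S.hf.bilinear.add_right] at hw
        fin_cases i
        · exact hw (by rw [hcon w0 hw0, hform0 0 z hz 1 (by decide) w1 hw1, add_zero])
        · exact hw (by rw [hcon w1 hw1, hform0 1 z hz 0 (by decide) w0 hw0, add_zero])
      obtain ⟨z', hz', hne⟩ := key
      exact ⟨⟨z', hz', fun h => hne ((Symp.eq_zero_comm S.hf).1 h)⟩, z', hz', hne⟩
  -- the stabiliser of the eigenspaces lies in `M`
  have hpm : ∀ g ∈ decompositionStabilizer D, ∃ s : F, (s = 1 ∨ s = -1) ∧
      (g : Matrix ι ι F) * S.P a = s • (S.P a * (g : Matrix ι ι F)) := by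
    rintro g ⟨σ, hσ⟩
    have hmap : ∀ i z, z ∈ D i → (g : Matrix ι ι F) *ᵥ z ∈ D (σ i) := fun i z hz => by
      rw [← hσ i]; exact ⟨z, hz, rfl⟩
    obtain ⟨s, hs, hsσ⟩ : ∃ s : F, (s = 1 ∨ s = -1) ∧ ∀ i, s * ε (σ i) = ε i := by
      by_cases h0 : σ 0 = 0
      · have h1 : σ 1 = 1 := by
          have : σ 1 ≠ 0 := fun e => absurd (σ.injective (e.trans h0.symm)) (by decide)
          omega
        exact ⟨1, Or.inl rfl, fun i => by fin_cases i <;> simp [h0, h1]⟩
      · have h0' : σ 0 = 1 := by omega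
        have h1 : σ 1 = 0 := by
          have : σ 1 ≠ 1 := fun e => absurd (σ.injective (e.trans h0'.symm)) (by decide)
          omega
        exact ⟨-1, Or.inr rfl, fun i => by fin_cases i <;> simp [h0', h1, ε]⟩
    refine ⟨s, hs, Matrix.ext_of_mulVec_single fun j => ?_⟩
    generalize (Pi.single j (1 : F) : ι → F) = z
    have hmemz : z ∈ D 0 ⊔ D 1 := hsup ▸ Submodule.mem_top
    obtain ⟨z0, hz0, z1, hz1, rfl⟩ := Submodule.mem_sup.1 hmemz
    have key : ∀ i z, z ∈ D i →
        ((g : Matrix ι ι F) * S.P a) *ᵥ z = (s • (S.P a * (g : Matrix ι ι F))) *ᵥ z := by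
      intro i z hz
      rw [← mulVec_mulVec, smul_mulVec, ← mulVec_mulVec, (hmem i z).1 hz, mulVec_smul,
        (hmem _ _).1 (hmap i z hz), smul_smul, hsσ i]
    rw [mulVec_add, mulVec_add, key 0 z0 hz0, key 1 z1 hz1]
  have hH : decompositionStabilizer D ⊓ isom S.f ≤ M := by
    rintro g ⟨hgD, hgI⟩
    obtain ⟨s, rfl | rfl, hs⟩ := hpm g hgD
    · exact hcomm g hgI (by rw [hs, one_smul])
    · have hu : (S.gl u : GL ι F) * g ∈ M := by
        refine hcomm _ (mul_mem (S.gl_mem_isom u) hgI) ?_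
        rw [Units.val_mul, Sys.coe_gl, mul_assoc, hs, mul_smul_comm, ← mul_assoc (S.P a),
          S.comm a u, sp.B_au, sgn_one, smul_mul_assoc, mul_assoc]
      have := mul_mem (inv_mem (hNM (S.gl_mem_N u))) hu
      rwa [inv_mul_cancel_left] at this
  rcases (Symp.decompStab_isMaximalIn S.hf hDdec (by
    rintro ⟨h, -⟩
    have : 2 ^ 3 ≤ 2 ^ k := Nat.pow_le_pow_right (by norm_num) hk
    omega)).2 M hH hM with h | h
  swap
  · exact h
  exfalso
  -- an element of the normaliser moving `a`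
  obtain ⟨w, -, hw⟩ := sp.T.quad.exists_coset (W := ⊤) (by
    rw [finrank_top, Module.finrank_fin_fun]; omega) 0 1
  rw [zero_add] at hw
  have hwq : S.q (sp.φ w) = 1 := (sp.q_φ w).trans hw
  have hvq : S.q (u + a) = 1 := by
    rw [S.q_add, sp.q_u, sp.q_a, S.sk, sp.B_au, zero_add, zero_add]
  obtain ⟨n, hn', hns⟩ := S.exists_pair h2 hvq hwq
  have hnD : n ∈ decompositionStabilizer D := (h ▸ hNM hn').1
  obtain ⟨s, -, hs⟩ := hpm n hnD
  have h1 := (S.act_unique hn' hs).1
  rw [hns, (sp.perp w).1, zero_smul, add_zero, map_add, sp.B_au, S.B_self, add_zero, one_smul,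
    add_eq_left] at h1
  rw [vec_add_eq_zero] at h1
  have := sp.B_au
  rw [h1, S.B_self] at this
  exact zero_ne_one this

end Split

end CfsgLib.Geometric.SympType
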