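import Cfsg.Agent.Lib.Forms.Symplectic
import Cfsg.Agent.Lib.Geometric.PauliMinus.Sys
import Cfsg.Agent.Lib.Geometric.SympType.Sys

/-!
Systems of minus type on labels of dimension six, in standard coordinates of `Sp_8`.
-/

set_option autoImplicit false
set_option linter.unusedSectionVars false

namespace CfsgLib.Geometric.SympType

open Matrix Module CfsgLib.Geometric
open CfsgLib.Geometric.PauliMinus (I8)

variable {F : Type*} [Field F] {ι : Type} [Fintype ι] [DecidableEq ι]

/-- Conjugation of the matrix algebras by an isomorphism of the natural modules. -/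
noncomputable def matConj {κ : Type} [Fintype κ] [DecidableEq κ] (E : (ι → F) ≃ₗ[F] (κ → F)) :
    Matrix ι ι F ≃ₐ[F] Matrix κ κ F :=
  (Matrix.toLinAlgEquiv'.trans (LinearEquiv.conjAlgEquiv F E)).trans LinearMap.toMatrixAlgEquiv'

theorem matConj_mulVec {κ : Type} [Fintype κ] [DecidableEq κ] (E : (ι → F) ≃ₗ[F] (κ → F))
    (X : Matrix ι ι F) (x : ι → F) : matConj E X *ᵥ E x = E (X *ᵥ x) := by
  rw [← Matrix.toLin'_apply]
  simp [matConj, Matrix.toLinAlgEquiv', LinearMap.toMatrixAlgEquiv', LinearEquiv.conjAlgEquiv_apply]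

/-- The labels of a system of minus type have no three-dimensional totally singular subspace. -/
theorem minus_triple (S : Sys 3 ι F) {a b c : L 3} (ha : S.q a = 0) (hb : S.q b = 0) (hc : S.q c = 0)
    (hab : S.B a b = 0) (hac : S.B a c = 0) (hbc : S.B b c = 0) (ha0 : a ≠ 0) (hb0 : b ≠ 0) (hne : a ≠ b) :
    c = 0 ∨ c = a ∨ c = b ∨ c = a + b := by
  by_contra hcon
  push Not at hcon
  obtain ⟨h0, h1, h2, h3⟩ := hcon
  have hiso : ∀ x ∈ Submodule.span (ZMod 2) ({a, b, c} : Set (L 3)),
      ∀ y ∈ Submodule.span (ZMod 2) ({a, b, c} : Set (L 3)), S.B x y = 0 := by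
    intro x hx y hy
    induction hx, hy using Submodule.span_induction₂ with
    | mem_mem x y hx hy =>
      have hba : S.B b a = 0 := (S.sk b a).trans hab
      have hca : S.B c a = 0 := (S.sk c a).trans hac
      have hcb : S.B c b = 0 := (S.sk c b).trans hbc
      rcases hx with rfl | rfl | rfl <;> rcases hy with rfl | rfl | rfl <;>
        first | exact S.B_self _ | assumption
    | zero_left => simp
    | zero_right => simp
    | add_left _ _ _ _ _ _ e e' => simp [e, e']
    | add_right _ _ _ _ _ _ e e' => simp [e, e']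
    | smul_left _ _ _ _ _ e => simp [e]
    | smul_right _ _ _ _ _ e => simp [e]
  have hsing : ∀ x ∈ Submodule.span (ZMod 2) ({a, b, c} : Set (L 3)), S.q x = 0 := by
    intro x hx
    induction hx using Submodule.span_induction with
    | mem x hx => rcases hx with rfl | rfl | rfl <;> assumption
    | zero => exact S.q_zero
    | add x y hx hy ex ey => rw [S.q_add, ex, ey, hiso x hx y hy]; rfl
    | smul r x hx ex =>
      rcases zmod2_cases r with rfl | rfl
      · rw [zero_smul]; exact S.q_zero
      · rwa [one_smul]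
  have hli : LinearIndependent (ZMod 2) ![a, b, c] := by
    rw [Fintype.linearIndependent_iff]
    intro g hg
    simp only [Fin.sum_univ_three, Matrix.cons_val] at hg
    rcases zmod2_cases (g 0) with e0 | e0 <;> rcases zmod2_cases (g 1) with e1 | e1 <;>
      rcases zmod2_cases (g 2) with e2 | e2 <;> rw [e0, e1, e2] at hg <;>
      simp only [zero_smul, one_smul, zero_add, add_zero] at hg
    · intro i; fin_cases i <;> assumption
    · exact absurd hg h0
    · exact absurd hg hb0
    · exact absurd (vec_add_eq_zero.1 hg).symm h2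
    · exact absurd hg ha0
    · exact absurd (vec_add_eq_zero.1 hg).symm h1
    · exact absurd (vec_add_eq_zero.1 hg) hne
    · exact absurd (vec_add_eq_zero.1 hg).symm h3
  have hfr := finrank_span_eq_card hli
  have hrange : Set.range ![a, b, c] = ({a, b, c} : Set (L 3)) := by
    ext x
    simp [eq_comm]
    tauto
  rw [hrange, Fintype.card_fin] at hfr
  exact absurd (S.minus _ hsing) (by omega)

/-- A system of minus type of size eight, in standard coordinates. -/
theorem exists_std (S : Sys 3 ι F) :
    ∃ (T : PauliMinus.Sys F) (Ψ : GL ι F ≃* GL I8 F),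
      S.N.map Ψ.toMonoidHom = T.N ∧ (isom S.f).map Ψ.toMonoidHom = Cfsg.spGL 4 F := by
  let β : LinearMap.BilinForm F (ι → F) := LinearMap.mk₂ F S.f S.hf.bilinear.add_left
    S.hf.bilinear.smul_left S.hf.bilinear.add_right S.hf.bilinear.smul_right
  have hA : β.IsAlt := fun v => S.hf.alternating v
  have hB : β.Nondegenerate := by
    refine ⟨fun v h => ?_, fun v h => ?_⟩ <;> by_contra hv
    · obtain ⟨y, hy⟩ := (S.hf.nondegenerate v hv).2
      exact hy (h y)
    · obtain ⟨y, hy⟩ := (S.hf.nondegenerate v hv).1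
      exact hy (h y)
  have hf4 := isSymplecticForm_sympForm 4 F
  let β' : LinearMap.BilinForm F (I8 → F) := LinearMap.mk₂ F (Cfsg.sympForm 4 F) hf4.bilinear.add_left
    hf4.bilinear.smul_left hf4.bilinear.add_right hf4.bilinear.smul_right
  have hA' : β'.IsAlt := fun v => hf4.alternating v
  have hB' : β'.Nondegenerate := by
    refine ⟨fun v h => ?_, fun v h => ?_⟩ <;> by_contra hv
    · obtain ⟨y, hy⟩ := (hf4.nondegenerate v hv).2
      exact hy (h y)
    · obtain ⟨y, hy⟩ := (hf4.nondegenerate v hv).1
      exact hy (h y)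
  obtain ⟨E, hE⟩ := CfsgLib.Forms.alt_isometric β hB hA β' hB' hA' (by simp [S.card])
  have hform : ∀ x y, Cfsg.sympForm 4 F (E x) (E y) = S.f x y := hE
  set ψ := matConj E with hψ
  let T : PauliMinus.Sys F :=
    { P := fun v => ψ (S.P v)
      q := S.q
      B := S.B
      q_add := S.q_add
      nondeg := S.nondeg
      minus := fun a b c => minus_triple S
      zero := by rw [S.zero, map_one]
      sq := fun v => by rw [← map_mul, S.sq, map_smul, map_one]
      comm := fun v w => by rw [← map_mul, S.comm, map_smul, map_mul]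
      add := fun v w => by
        obtain ⟨c, hc⟩ := S.add v w
        exact ⟨c, by rw [hc, map_smul, map_mul]⟩
      li := S.li.map' ψ.toLinearMap (LinearMap.ker_eq_bot.2 ψ.injective)
      isom := fun v x y => by
        obtain ⟨x, rfl⟩ := E.surjective x
        obtain ⟨y, rfl⟩ := E.surjective y
        rw [matConj_mulVec, matConj_mulVec, hform, hform, S.isom_P] }
  let Ψ : GL ι F ≃* GL I8 F := Units.mapEquiv ψ.toMulEquiv
  have hisom : ∀ g, g ∈ isom S.f ↔ Ψ g ∈ Cfsg.spGL 4 F := by
    intro g
    constructor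
    · intro h x y
      obtain ⟨x, rfl⟩ := E.surjective x
      obtain ⟨y, rfl⟩ := E.surjective y
      show Cfsg.sympForm 4 F (ψ _ *ᵥ E x) (ψ _ *ᵥ E y) = _
      rw [matConj_mulVec, matConj_mulVec, hform, hform]
      exact h x y
    · intro h x y
      have e : Cfsg.sympForm 4 F (ψ _ *ᵥ E x) (ψ _ *ᵥ E y) = Cfsg.sympForm 4 F (E x) (E y) := h (E x) (E y)
      rw [matConj_mulVec, matConj_mulVec, hform, hform] at e
      exact e
  have hN : ∀ g, g ∈ S.N ↔ Ψ g ∈ T.N := by
    intro g
    refine and_congr (hisom g) (forall_congr' fun v => exists_congr fun w => exists_congr fun c => ?_)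
    show _ ↔ ψ _ * ψ _ = c • (ψ _ * ψ _)
    rw [← map_mul, ← map_mul, ← map_smul, ψ.injective.eq_iff]
  refine ⟨T, Ψ, ?_, ?_⟩ <;> ext g <;> obtain ⟨g, rfl⟩ := Ψ.surjective g
  · exact (Subgroup.mem_map_iff_mem Ψ.injective).trans (hN g)
  · exact (Subgroup.mem_map_iff_mem Ψ.injective).trans (hisom g)

/-- The dichotomy for systems of size eight follows from the one in standard coordinates. -/
theorem dichotomy_three_of_std
    (hbase : ∀ (T : PauliMinus.Sys F) (M : Subgroup (GL I8 F)), T.N ≤ M → M ≤ Cfsg.spGL 4 F →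
      M ≤ T.N ∨ M = Cfsg.spGL 4 F)
    (S : Sys 3 ι F) : S.Dichotomy := by
  obtain ⟨T, Ψ, hN, hI⟩ := exists_std S
  intro M hNM hM
  rcases hbase T (M.map Ψ.toMonoidHom) (hN ▸ Subgroup.map_mono hNM) (hI ▸ Subgroup.map_mono hM) with h | h
  · left
    rw [← hN] at h
    exact (Subgroup.map_le_map_iff_of_injective Ψ.injective).1 h
  · right
    rw [← hI] at h
    exact Subgroup.map_injective Ψ.injective h

end CfsgLib.Geometric.SympType
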