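import Cfsg.Agent.Lib.Geometric.SympType.Quad

/-!
A set of isometries of a quadratic space over `𝔽₂` which is closed under commutators with products of
two commuting transvections and in which an element fixing a singular vector `z` moves the orthogonal
of `z` only inside the cosets of `z` consists of the identity.
-/

set_option autoImplicit false

namespace CfsgLib.Geometric.SympType

open Module

namespace Quad

variable {k : ℕ} (Q : Quad k)

local notation "V" => Fin (2 * k) → ZMod 2

/-- The product of the transvections at `w`, then `v`. -/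
def pairMap (v w z : Fin (2 * k) → ZMod 2) : Fin (2 * k) → ZMod 2 :=
  z + Q.B z w • w + Q.B (z + Q.B z w • w) v • v

/-- The hypotheses on a set `P` of maps of the labels. -/
structure Rigid (P : ((Fin (2 * k) → ZMod 2) → (Fin (2 * k) → ZMod 2)) → Prop) : Prop where
  add : ∀ C, P C → ∀ a b, C (a + b) = C a + C b
  q_eq : ∀ C, P C → ∀ a, Q.q (C a) = Q.q a
  comm : ∀ C, P C → ∀ v w, Q.q v = 1 → Q.q w = 1 → Q.B v w = 0 →
    ∃ C', P C' ∧ ∀ x, C' (Q.pairMap v w (C x)) = C (Q.pairMap v w x)
  coset : ∀ C, P C → ∀ z w, z ≠ 0 → Q.q z = 0 → C z = z → Q.B z w = 0 → C w = w ∨ C w = w + z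

/-- A vector with product one with `v` and orthogonal to a subspace not containing `v`. -/
theorem exists_of_not_mem {W : Submodule (ZMod 2) V} {v : V} (h : v ∉ W) :
    ∃ d, (∀ w ∈ W, Q.B w d = 0) ∧ Q.B v d = 1 := by
  by_contra hne
  push Not at hne
  apply h
  rw [← Q.perp_perp W]
  intro d hd
  show Q.B d v = 0
  rw [Q.sk]
  exact (zmod2_cases _).resolve_right (hne d hd)

/-- A coset of the orthogonal of few vectors meets both values of the form. -/
theorem exists_perp_coset (s : Finset V) (hs : s.card < k) (d : V) (e : ZMod 2) :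
    ∃ w, (∀ v ∈ s, Q.B v w = 0) ∧ Q.q (d + w) = e := by
  obtain ⟨w, hw, he⟩ := Q.exists_coset (W := Q.perp (Submodule.span (ZMod 2) (s : Set V)))
    (by have := Q.le_finrank_perp_span s; omega) d e
  exact ⟨w, fun v hv => hw v (Submodule.subset_span hv), he⟩

variable {P : ((Fin (2 * k) → ZMod 2) → (Fin (2 * k) → ZMod 2)) → Prop} (hP : Q.Rigid P)
include hP

theorem Rigid.map_zero {C : V → V} (hC : P C) : C 0 = 0 := by
  have h := hP.add C hC 0 0
  rw [add_zero] at h
  exact add_eq_left.1 h.symm

theorem Rigid.B_eq {C : V → V} (hC : P C) (a b : V) : Q.B (C a) (C b) = Q.B a b := by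
  have h1 := Q.q_add (C a) (C b)
  rw [← hP.add C hC, hP.q_eq C hC, hP.q_eq C hC, hP.q_eq C hC, Q.q_add] at h1
  exact (add_left_cancel h1).symm

theorem Rigid.surj {C : V → V} (hC : P C) : Function.Surjective C := by
  refine Finite.injective_iff_surjective.1 fun a b h => ?_
  rw [← vec_add_eq_zero]
  refine Q.nondeg _ fun w => ?_
  rw [← hP.B_eq Q hC, hP.add C hC, h, vec_add_self, _root_.map_zero, LinearMap.zero_apply]

/-- The commutator with the product of the transvections at `y` and `y + z`, on the orthogonal of `z`. -/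
theorem Rigid.exists_comm {C : V → V} (hC : P C) {z y : V} (hqz : Q.q z = 0) (hqy : Q.q y = 1)
    (hyz : Q.B y z = 0) (hCyz : Q.B (C y) z = 0) :
    ∃ C', P C' ∧ ∀ x, Q.B x z = 0 → C' x = x + Q.B x y • z + (Q.B x (C z) + Q.B x y * Q.B z (C z)) • C y +
      (Q.B x (C y) + Q.B x (C z) + Q.B x y * Q.B z (C z)) • C z := by
  have hqv : Q.q (y + z) = 1 := by rw [Q.q_add, hqy, hqz, hyz]; decide
  have hvy : Q.B (y + z) y = 0 := by
    rw [_root_.map_add, LinearMap.add_apply, Q.alt, Q.sk z, hyz, add_zero]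
  obtain ⟨C', hC', hrel⟩ := hP.comm C hC (y + z) y hqv hqy hvy
  refine ⟨C', hC', fun x hx => ?_⟩
  have hn : ∀ r, Q.pairMap (y + z) y r = r + Q.B r z • y + (Q.B r y + Q.B r z) • z := by
    intro r
    have e : Q.B (r + Q.B r y • y) (y + z) = Q.B r y + Q.B r z := by
      simp only [_root_.map_add, _root_.map_smul, LinearMap.add_apply, LinearMap.smul_apply, Q.alt, hyz,
        smul_eq_mul, mul_zero, add_zero]
    rw [pairMap, e]
    simp only [add_smul, smul_add]
    rw [show r + Q.B r y • y + (Q.B r y • y + Q.B r z • y + (Q.B r y • z + Q.B r z • z)) =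
      r + (Q.B r y • y + Q.B r y • y) + Q.B r z • y + (Q.B r y • z + Q.B r z • z) by abel, vec_add_self,
      add_zero]
  have hnn : ∀ r, Q.B r z = 0 → Q.pairMap (y + z) y r = r + Q.B r y • z := fun r hr => by
    rw [hn, hr, zero_smul, add_zero, add_zero]
  -- the preimage of the image of `x`
  obtain ⟨r, hr⟩ := hP.surj Q hC (x + Q.B x y • z)
  have hzy : Q.B z y = 0 := by rw [Q.sk, hyz]
  have hrn : Q.pairMap (y + z) y (C r) = x := by
    rw [hnn _ (by rw [hr]; simp [hx, Q.alt]), hr, show Q.B (x + Q.B x y • z) y = Q.B x y by simp [hzy],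
      add_assoc, vec_add_self, add_zero]
  have h1 : Q.B r z = Q.B x (C z) + Q.B x y * Q.B z (C z) := by
    rw [← hP.B_eq Q hC r z, hr]; simp
  have h2 : Q.B r y = Q.B x (C y) := by
    rw [← hP.B_eq Q hC r y, hr]; simp [Q.sk z, hCyz]
  have hsmul : ∀ (c : ZMod 2) (u : V), C (c • u) = c • C u := fun c u => by
    rcases zmod2_cases c with rfl | rfl <;> simp [hP.map_zero Q hC]
  have := hrel r
  rw [hrn] at this
  rw [this, hn, hP.add C hC, hP.add C hC, hsmul, hsmul, hr, h1, h2, add_assoc (Q.B x (C y))]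

/-- No element moves a singular vector to an orthogonal one. -/
theorem Rigid.no_orth_move (hk : 3 ≤ k) {C : V → V} (hC : P C) {z : V} (hz : z ≠ 0) (hqz : Q.q z = 0)
    (hmove : C z ≠ z) : Q.B z (C z) = 1 := by
  refine (zmod2_cases _).resolve_left fun h0 => ?_
  obtain ⟨z₁, hz₁⟩ := hP.surj Q hC z
  obtain ⟨y, hy, hqy⟩ := Q.exists_perp_coset {z, z₁} (Finset.card_le_two.trans_lt (by omega)) 0 1
  rw [zero_add] at hqy
  have hyz : Q.B y z = 0 := (Q.sk y z).trans (hy z (by simp))
  have hCyz : Q.B (C y) z = 0 := by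
    rw [← hz₁, hP.B_eq Q hC, Q.sk]; exact hy z₁ (by simp)
  obtain ⟨C', hC', hform⟩ := hP.exists_comm Q hC hqz hqy hyz hCyz
  have hCz0 : C z ≠ 0 := fun h => hz (by
    refine Q.nondeg _ fun u => ?_
    rw [← hP.B_eq Q hC, h, _root_.map_zero, LinearMap.zero_apply])
  have hni : C y ∉ Submodule.span (ZMod 2) {z, C z} := by
    intro hm
    obtain ⟨a, b, e⟩ := Submodule.mem_span_pair.1 hm
    have hq0 : Q.q (a • z + b • C z) = 0 := by
      rcases zmod2_cases a with rfl | rfl <;> rcases zmod2_cases b with rfl | rfl <;>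
        simp [Q.q_add, Q.q_zero, hqz, hP.q_eq C hC, h0]
    rw [e, hP.q_eq C hC, hqy] at hq0
    exact one_ne_zero hq0
  obtain ⟨w, hw, hwy⟩ := Q.exists_of_not_mem hni
  have hwz : Q.B z w = 0 := hw z (Submodule.subset_span (by simp))
  have hwz' : Q.B (C z) w = 0 := hw _ (Submodule.subset_span (by simp))
  have hfix : C' z = z := by
    rw [hform z (Q.alt z), Q.sk z y, hyz, h0, Q.sk z (C y), hCyz]
    simp
  have himg : C' w = w + Q.B w y • z + C z := by
    rw [hform w ((Q.sk w z).trans hwz), h0, Q.sk w (C z), hwz', Q.sk w (C y), hwy]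
    simp
  rcases hP.coset C' hC' z w hz hqz hfix hwz with e | e <;> rw [himg, add_assoc] at e <;>
    rcases zmod2_cases (Q.B w y) with hb | hb <;> rw [hb] at e <;> simp at e
  · exact hCz0 e
  · exact hmove (vec_add_eq_zero.1 e).symm
  · exact hmove e
  · exact hCz0 e

/-- An element fixing a singular vector is the identity. -/
theorem Rigid.eq_id_of_fix (hk : 3 ≤ k) {C : V → V} (hC : P C) {z : V} (hz : z ≠ 0) (hqz : Q.q z = 0)
    (hfix : C z = z) : ∀ x, C x = x := by
  have hsing : ∀ w, Q.q w = 0 → Q.B z w = 0 → C w = w := by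
    intro w hqw hzw
    rcases hP.coset C hC z w hz hqz hfix hzw with e | e
    · exact e
    by_cases hw : w = 0
    · rw [hw, hP.map_zero Q hC]
    exfalso
    have hmove : C w ≠ w := by rw [e]; simpa using hz
    have := hP.no_orth_move Q hk hC hw hqw hmove
    rw [e, _root_.map_add, Q.alt, Q.sk w z, hzw, add_zero] at this
    exact zero_ne_one this
  have hperp : ∀ x, Q.B z x = 0 → C x = x := by
    intro x hzx
    rcases zmod2_cases (Q.q x) with hqx | hqx
    · exact hsing x hqx hzx
    have hx0 : x ≠ 0 := fun h => by rw [h, Q.q_zero] at hqx; exact zero_ne_one hqx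
    have hxz : z ≠ x := fun h => by rw [← h, hqz] at hqx; exact zero_ne_one hqx
    obtain ⟨d, hd, hd'⟩ := Q.exists_dual hz hx0 hxz 0 1
    obtain ⟨w, hw, hqs⟩ := Q.exists_perp_coset {z, x} (Finset.card_le_two.trans_lt (by omega)) d 0
    have hzs : Q.B z (d + w) = 0 := by rw [_root_.map_add, hd, hw z (by simp), add_zero]
    have hxs : Q.B x (d + w) = 1 := by rw [_root_.map_add, hd', hw x (by simp), add_zero]
    have h1 := hsing _ hqs hzs
    have h2 := hsing (x + (d + w)) (by rw [Q.q_add, hqx, hqs, hxs]; decide)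
      (by rw [_root_.map_add, hzx, hzs, add_zero])
    rw [hP.add C hC, h1] at h2
    exact add_right_cancel h2
  intro u
  rcases zmod2_cases (Q.B z u) with hu | hu
  · exact hperp u hu
  have hr : C u + u ∈ Submodule.span (ZMod 2) ({z} : Set V) := by
    rw [← Q.perp_perp (Submodule.span (ZMod 2) {z})]
    intro x hx
    show Q.B x (C u + u) = 0
    rw [_root_.map_add]
    nth_rewrite 1 [← hperp x (hx z (Submodule.mem_span_singleton_self z))]
    rw [hP.B_eq Q hC]
    exact CharTwo.add_self_eq_zero _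
  obtain ⟨c, hc⟩ := Submodule.mem_span_singleton.1 hr
  rcases zmod2_cases c with rfl | rfl
  · rw [zero_smul] at hc; exact vec_add_eq_zero.1 hc.symm
  · exfalso
    rw [one_smul] at hc
    have e : C u = u + z := by rw [hc, add_comm (C u), ← add_assoc, vec_add_self, zero_add]
    have hq := hP.q_eq C hC u
    rw [e, Q.q_add, hqz, Q.sk u z, hu, add_zero] at hq
    exact one_ne_zero (add_eq_left.1 hq)

/-- The set consists of the identity. -/
theorem Rigid.eq_id (hk : 3 ≤ k) {C : V → V} (hC : P C) : ∀ x, C x = x := by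
  obtain ⟨z, -, hz, hqz⟩ := Q.exists_singular (W := ⊤) (by rw [finrank_top, finrank_fin_fun]; omega)
  by_cases hfix : C z = z
  · exact hP.eq_id_of_fix Q hk hC hz hqz hfix
  exfalso
  have h1 := hP.no_orth_move Q hk hC hz hqz hfix
  obtain ⟨z₁, hz₁⟩ := hP.surj Q hC z
  obtain ⟨y, hy, hqy⟩ := Q.exists_perp_coset {z, z₁} (Finset.card_le_two.trans_lt (by omega)) 0 1
  rw [zero_add] at hqy
  have hyz : Q.B y z = 0 := (Q.sk y z).trans (hy z (by simp))
  have hCyz : Q.B (C y) z = 0 := by
    rw [← hz₁, hP.B_eq Q hC, Q.sk]; exact hy z₁ (by simp)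
  obtain ⟨C', hC', hform⟩ := hP.exists_comm Q hC hqz hqy hyz hCyz
  obtain ⟨z', hz', hz'0, hqz'⟩ := Q.exists_singular
    (W := Q.perp (Submodule.span (ZMod 2) (({z, y, C z} : Finset V) : Set V))) (by
      have := Q.le_finrank_perp_span {z, y, C z}
      have := Finset.card_le_three (a := z) (b := y) (c := C z)
      omega)
  have hperp : ∀ v ∈ ({z, y, C z} : Finset V), Q.B z' v = 0 := fun v hv =>
    (Q.sk z' v).trans (hz' v (Submodule.subset_span hv))
  have himg : C' z' = z' + Q.B z' (C y) • C z := by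
    rw [hform z' (hperp z (by simp)), hperp y (by simp), hperp (C z) (by simp)]
    simp
  have hid : ∀ x, C' x = x := by
    rcases zmod2_cases (Q.B z' (C y)) with hb | hb <;> rw [hb] at himg
    · exact hP.eq_id_of_fix Q hk hC' hz'0 hqz' (by rw [himg, zero_smul, add_zero])
    · exfalso
      have hmove : C' z' ≠ z' := by
        rw [himg, one_smul]
        intro e
        rw [add_eq_left] at e
        rw [e, _root_.map_zero] at h1
        exact zero_ne_one h1
      have := hP.no_orth_move Q hk hC' hz'0 hqz' hmove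
      rw [himg, one_smul, _root_.map_add, Q.alt, hperp (C z) (by simp), add_zero] at this
      exact zero_ne_one this
  have hbad := hform z (Q.alt z)
  rw [hid, Q.sk z y, hyz, h1, Q.sk z (C y), hCyz] at hbad
  simp only [zero_smul, zero_mul, add_zero, zero_add, one_smul] at hbad
  rw [add_assoc] at hbad
  have e : C y = C z := vec_add_eq_zero.1 (left_eq_add.1 hbad)
  have := congrArg Q.q e
  rw [hP.q_eq C hC, hP.q_eq C hC, hqy, hqz] at this
  exact one_ne_zero this

end Quad

end CfsgLib.Geometric.SympType
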