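import Cfsg.Agent.Lib.Geometric.SympType.Blocks
import Cfsg.Agent.Lib.Geometric.SympType.Pair
import Cfsg.Agent.Lib.Geometric.SympType.Labels

/-!
The small case: if the projections of the centralisers of singular labels all normalise the smaller
system, then the centraliser of a singular label lies in the normaliser.
-/

set_option autoImplicit false
set_option linter.unusedSectionVars false
set_option linter.unusedSimpArgs false

namespace CfsgLib.Geometric.SympType

open Matrix CfsgLib.Geometric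
open CfsgLib.Geometric.PauliMax (sgn sgn_zero sgn_one sgn_cases sgn_sq sgn_inj sgn_add sgn_ne_zero)

variable {k : ℕ} {ι : Type} [Fintype ι] [DecidableEq ι] {F : Type*} [Field F]

local notation "𝕂" => Matrix (K k) (K k) F

namespace Sys

/-- The centraliser of `P a` in `M` sends labels orthogonal to `a` to labels on the first eigenspace. -/
def Proj (S : Sys k ι F) (M : Subgroup (GL ι F)) (a : L k) : Prop :=
  ∀ g ∈ M, (g : Matrix ι ι F) * S.P a = S.P a * (g : Matrix ι ι F) → ∀ w, S.B a w = 0 →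
    ∃ (w' : L k) (c : F), (g : Matrix ι ι F) * S.P w * (1 + S.P a) =
      c • (S.P w' * ((g : Matrix ι ι F) * (1 + S.P a)))

/-- Two products with `1 + P z` are proportional only for labels in one coset of `z`. -/
theorem mem_coset (T : Sys k ι F) {a b z : L k} {c d : F} (hc : c ≠ 0)
    (h : c • (T.P a * (1 + T.P z)) = d • (T.P b * (1 + T.P z))) (hz : z ≠ 0) : a = b ∨ a = b + z := by
  classical
  by_contra hne
  push Not at hne
  obtain ⟨ka, hka0, hka⟩ := T.P_add_coeff a z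
  obtain ⟨kb, hkb0, hkb⟩ := T.P_add_coeff b z
  have ea : T.P a * (1 + T.P z) = T.P a + ka⁻¹ • T.P (a + z) := by
    rw [mul_add, mul_one, hka, smul_smul, inv_mul_cancel₀ hka0, one_smul]
  have eb : T.P b * (1 + T.P z) = T.P b + kb⁻¹ • T.P (b + z) := by
    rw [mul_add, mul_one, hkb, smul_smul, inv_mul_cancel₀ hkb0, one_smul]
  rw [ea, eb] at h
  let g : L k → F :=
    Pi.single a c + Pi.single (a + z) (c * ka⁻¹) - Pi.single b d - Pi.single (b + z) (d * kb⁻¹)
  have hs : ∀ (p : L k) (e : F), ∑ i, (Pi.single p e : L k → F) i • T.P i = e • T.P p := fun p e => by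
    rw [Finset.sum_eq_single p (fun q _ hq => by rw [Pi.single_eq_of_ne hq, zero_smul])
      (fun hp => absurd (Finset.mem_univ p) hp), Pi.single_eq_same]
  have hsum : ∑ i, g i • T.P i = 0 := by
    simp only [g, Pi.sub_apply, Pi.add_apply, sub_smul, add_smul, Finset.sum_sub_distrib,
      Finset.sum_add_distrib, hs]
    simp only [smul_add, smul_smul] at h
    rw [h]
    abel
  have hga := Fintype.linearIndependent_iff.1 T.li g hsum a
  have h1 : a ≠ a + z := fun e => hz (add_eq_left.1 e.symm)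
  simp [g, hne.1, hne.2, h1] at hga
  exact hc hga

theorem one_add_ne_zero (T : Sys k ι F) {z : L k} (hz : z ≠ 0) : 1 + T.P z ≠ 0 := by
  intro h
  rw [← T.zero] at h
  exact hz (T.eq_of_smul_P (c := (-1 : F)) (by rw [neg_one_smul]; exact eq_neg_of_add_eq_zero_right h))

/-- Every vector has product one with some singular one, for a singular non-zero label. -/
theorem exists_singular_dual (S : Sys k ι F) {a : L k} (ha : a ≠ 0) (hqa : S.q a = 0) :
    ∃ u, S.q u = 0 ∧ S.B a u = 1 := by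
  obtain ⟨d, hd⟩ : ∃ d, S.B a d = 1 := by
    by_contra h
    push Not at h
    exact ha (S.nondeg a fun w => (zmod2_cases _).resolve_right (h w))
  rcases zmod2_cases (S.q d) with h | h
  · exact ⟨d, h, hd⟩
  · refine ⟨d + a, ?_, by rw [map_add, hd, S.B_self, add_zero]⟩
    rw [S.q_add, h, hqa, S.sk, hd]
    decide

end Sys

namespace Split

variable {S : Sys (k + 1) ι F} {a u : L (k + 1)} (sp : Split S a u) {M : Subgroup (GL ι F)}

include sp in
theorem a_ne_zero : a ≠ 0 := fun h => by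
  have := sp.B_au
  rw [h, map_zero, LinearMap.zero_apply] at this
  exact zero_ne_one this

/-- Every label gives a diagonal or an antidiagonal block matrix. -/
theorem P_cases (w : L (k + 1)) :
    ∃ (y : L k) (l s : F), l ≠ 0 ∧
      (sp.Φ (S.P w) = l • fromBlocks (sp.T.P y) 0 0 (s • sp.T.P y) ∨
        sp.Φ (S.P w) = l • fromBlocks 0 (sp.T.P y) (s • sp.T.P y) 0) ∧
      (S.B a w = 0 → sp.Φ (S.P w) = l • fromBlocks (sp.T.P y) 0 0 (s • sp.T.P y)) := by
  obtain ⟨y, d, e, rfl⟩ := sp.cases w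
  have hB : S.B a (sp.φ y + d • a + e • u) = e := by
    simp [(sp.perp y).1, S.B_self, sp.B_au]
  rw [hB]
  obtain ⟨l₁, hl₁, h₁⟩ := S.P_add_coeff (sp.φ y) (d • a)
  obtain ⟨l₂, hl₂, h₂⟩ := S.P_add_coeff (sp.φ y + d • a) (e • u)
  have hw : sp.Φ (S.P (sp.φ y + d • a + e • u)) =
      (l₂ * l₁) • (fromBlocks (sp.T.P y) 0 0 (sp.T.P y) * sp.Φ (S.P (d • a)) * sp.Φ (S.P (e • u))) := by
    rw [h₂, h₁, smul_mul_assoc, smul_smul, sp.Φ_smul, map_mul, map_mul, sp.P_φ]
  have hl := mul_ne_zero hl₂ hl₁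
  rcases zmod2_cases e with rfl | rfl <;> rcases zmod2_cases d with rfl | rfl <;>
    simp only [zero_smul, one_smul, S.zero, map_one, sp.P_a, sp.P_u, mul_one] at hw ⊢
  · exact ⟨y, _, 1, hl, Or.inl (by simpa using hw), fun _ => by simpa using hw⟩
  · exact ⟨y, _, -1, hl, Or.inl (by simpa [fromBlocks_multiply] using hw),
      fun _ => by simpa [fromBlocks_multiply] using hw⟩
  · exact ⟨y, _, 1, hl, Or.inr (by simpa [fromBlocks_multiply] using hw), fun h => absurd h one_ne_zero⟩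
  · exact ⟨y, _, -1, hl, Or.inr (by simpa [fromBlocks_multiply] using hw), fun h => absurd h one_ne_zero⟩

/-- The small case gives the projection property. -/
theorem proj_of_small (h2 : (2 : F) ≠ 0) (hsm : sp.Small M) : S.Proj M a := by
  intro g hg hgc w hw
  obtain ⟨A, B, rfl⟩ := sp.exists_bd h2 hgc
  have hA : A ∈ sp.T.N := hsm (sp.mem_projGroup hg)
  obtain ⟨y, l, s, -, -, hP⟩ := sp.P_cases w
  refine ⟨sp.φ (sp.T.sP A y), l * sp.T.cP A y, sp.Φ_inj ?_⟩
  simp only [map_mul, sp.Φ_smul, map_add, map_one, sp.P_a, sp.P_φ, sp.Φ_bd, hP hw]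
  rw [← fromBlocks_one, fromBlocks_add, fromBlocks_smul, fromBlocks_multiply, fromBlocks_multiply,
    fromBlocks_multiply, fromBlocks_multiply, fromBlocks_smul]
  simp only [add_neg_cancel, mul_zero, zero_mul, add_zero, zero_add, smul_zero, mul_smul_comm,
    smul_mul_assoc, mul_add, mul_one, smul_add]
  simp [sp.T.act_spec hA, smul_smul]

theorem φ_ne_zero {z : L k} (hz : z ≠ 0) : sp.φ z ≠ 0 := fun h =>
  hz (sp.φ_inj (by rw [h, map_zero]))

theorem B_φ (y z : L k) : S.B (sp.φ y) (sp.φ z) = sp.T.B y z := by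
  have h := S.q_add (sp.φ y) (sp.φ z)
  rw [← map_add, sp.q_φ, sp.q_φ, sp.q_φ, sp.T.q_add] at h
  exact (add_left_cancel h).symm

theorem commute_Pφ {C : GL (K k) F} {z : L k}
    (hz : (C : 𝕂) * sp.T.P z = sp.T.P z * (C : 𝕂)) :
    ((sp.bd (1, C) : GL ι F) : Matrix ι ι F) * S.P (sp.φ z) =
      S.P (sp.φ z) * ((sp.bd (1, C) : GL ι F) : Matrix ι ι F) := by
  apply sp.Φ_inj
  rw [map_mul, map_mul, sp.Φ_bd, sp.P_φ, fromBlocks_multiply, fromBlocks_multiply]
  simp [hz]

/-- A one-sided element commuting with a singular label moves orthogonal labels inside their cosets. -/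
theorem lemmaX (hproj : ∀ b, b ≠ 0 → S.q b = 0 → S.Proj M b) {C : GL (K k) F} (hC : sp.bd (1, C) ∈ M)
    {z w w' : L k} (hz0 : z ≠ 0) (hqz : sp.T.q z = 0)
    (hz : (C : 𝕂) * sp.T.P z = sp.T.P z * (C : 𝕂)) (hzw : sp.T.B z w = 0) {c : F}
    (hcw : (C : 𝕂) * sp.T.P w = c • (sp.T.P w' * (C : 𝕂))) : w' = w ∨ w' = w + z := by
  obtain ⟨w'', c'', e⟩ := hproj (sp.φ z) (sp.φ_ne_zero hz0) ((sp.q_φ z).trans hqz) _ hC (sp.commute_Pφ hz)
    (sp.φ w) (by rw [sp.B_φ, hzw])
  have hc : c ≠ 0 := sp.T.coeff_ne_zero hcw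
  obtain ⟨y, l, s, hl, hP | hP, -⟩ := sp.P_cases w''
  · have e' := congrArg sp.Φ e
    simp only [map_mul, sp.Φ_smul, map_add, map_one, sp.P_φ, sp.Φ_bd, hP, ← fromBlocks_one,
      fromBlocks_add, fromBlocks_multiply, fromBlocks_smul, smul_zero, zero_mul, mul_zero, add_zero,
      zero_add, fromBlocks_inj, Units.val_one, one_mul, mul_one] at e'
    obtain ⟨e1, -, -, e4⟩ := e'
    have hcomm : (C : 𝕂) * (1 + sp.T.P z) = (1 + sp.T.P z) * (C : 𝕂) := by
      rw [mul_add, add_mul, mul_one, one_mul, hz]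
    rw [hcw, smul_mul_assoc, mul_assoc, hcomm, ← mul_assoc] at e4
    have e5 : c • (sp.T.P w' * (1 + sp.T.P z)) = s • (sp.T.P w * (1 + sp.T.P z)) := by
      apply (Units.mul_left_inj C).1
      rw [smul_mul_assoc, smul_mul_assoc, e4, e1]
      simp only [smul_smul, mul_assoc, smul_mul_assoc, mul_smul_comm, smul_add, mul_add, add_mul, one_mul, mul_one]
      module
    exact sp.T.mem_coset hc e5 hz0
  · exfalso
    have e' := congrArg sp.Φ e
    simp only [map_mul, sp.Φ_smul, map_add, map_one, sp.P_φ, sp.Φ_bd, hP, ← fromBlocks_one,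
      fromBlocks_add, fromBlocks_multiply, fromBlocks_smul, smul_zero, zero_mul, mul_zero, add_zero,
      zero_add, fromBlocks_inj, Units.val_one, one_mul, mul_one] at e'
    obtain ⟨e1, -, -, -⟩ := e'
    refine sp.T.one_add_ne_zero hz0 ?_
    have h1 := congrArg (fun X => sp.T.P w * X) e1
    simp only [mul_zero, ← mul_assoc, sp.T.sq, smul_mul_assoc, one_mul] at h1
    exact (smul_eq_zero.1 h1).resolve_left (sgn_ne_zero _)

/-- The small case. -/
theorem mem_N_of_small (hk : 3 ≤ k) (h2 : (2 : F) ≠ 0) (hNM : S.N ≤ M)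
    (hproj : ∀ b, b ≠ 0 → S.q b = 0 → S.Proj M b) (hsm : sp.Small M) {g : GL ι F} (hg : g ∈ M)
    (hgc : (g : Matrix ι ι F) * S.P a = S.P a * (g : Matrix ι ι F)) : g ∈ S.N := by
  obtain ⟨A, B, rfl⟩ := sp.exists_bd h2 hgc
  have hA : A ∈ sp.T.N := hsm (sp.mem_projGroup hg)
  have hB : B ∈ sp.T.N := hsm (sp.mem_projGroup₂ hNM hg)
  have hAA := sp.bd_diag_mem_N hA
  suffices h : sp.bd (1, A⁻¹ * B) ∈ S.N by
    have := mul_mem hAA h
    rwa [← map_mul, Prod.mk_mul_mk, mul_one, mul_inv_cancel_left] at this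
  have hCM : sp.bd (1, A⁻¹ * B) ∈ M := by
    have := mul_mem (inv_mem (hNM hAA)) hg
    rwa [← map_inv, ← map_mul, Prod.inv_mk, Prod.mk_mul_mk, inv_mul_cancel] at this
  have hC : A⁻¹ * B ∈ sp.T.N := mul_mem (inv_mem hA) hB
  generalize A⁻¹ * B = C at hC hCM ⊢
  set T := sp.T with hT
  -- the label maps of the one-sided elements
  let P : (L k → L k) → Prop := fun f => ∃ D ∈ T.N, sp.bd (1, D) ∈ M ∧ ∀ x, T.sP D x = f x
  have hrig : T.quad.Rigid P := by
    refine ⟨?_, ?_, ?_, ?_⟩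
    · rintro f ⟨D, hD, -, hf⟩ x y
      rw [← hf, ← hf, ← hf]; exact T.act_add hD x y
    · rintro f ⟨D, hD, -, hf⟩ x
      rw [← hf]; exact T.act_q h2 hD x
    · rintro f ⟨D, hD, hDM, hf⟩ v w hv hw -
      obtain ⟨n, hn, hns⟩ := T.exists_pair h2 hv hw
      have hC' : D * n * D⁻¹ * n⁻¹ ∈ T.N := mul_mem (mul_mem (mul_mem hD hn) (inv_mem hD)) (inv_mem hn)
      refine ⟨_, ⟨_, hC', ?_, fun x => rfl⟩, fun x => ?_⟩
      · have hnM : sp.bd (n, n) ∈ M := hNM (sp.bd_diag_mem_N hn)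
        have := mul_mem (mul_mem (mul_mem hDM hnM) (inv_mem hDM)) (inv_mem hnM)
        rw [← map_inv, ← map_inv, ← map_mul, ← map_mul, ← map_mul] at this
        convert this using 2
        simp
      · show T.sP (D * n * D⁻¹ * n⁻¹) (_) = f (_)
        rw [← hf x, ← hf (Quad.pairMap _ v w x)]
        show T.sP (D * n * D⁻¹ * n⁻¹) (T.sP D x + _ + _) = T.sP D (x + _ + _)
        have e1 : T.sP D x + T.quad.B (T.sP D x) w • w +
            T.quad.B (T.sP D x + T.quad.B (T.sP D x) w • w) v • v = T.sP n (T.sP D x) := (hns _).symm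
        have e2 : x + T.quad.B x w • w + T.quad.B (x + T.quad.B x w • w) v • v = T.sP n x := (hns _).symm
        rw [e1, e2, ← (T.act_mul hn hD x).1, ← (T.act_mul hC' (mul_mem hn hD) x).1,
          ← (T.act_mul hD hn x).1]
        congr 1
        group
    · rintro f ⟨D, hD, hDM, hf⟩ z w hz hqz hfz hzw
      rw [← hf] at hfz ⊢
      obtain ⟨D', hD', hD'M, hD'z, hD'w⟩ : ∃ D' ∈ T.N, sp.bd (1, D') ∈ M ∧
          ((D' : 𝕂) * T.P z = T.P z * (D' : 𝕂)) ∧ T.sP D' w = T.sP D w := by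
        have hspec := T.act_spec hD z
        rw [hfz] at hspec
        rcases mul_self_eq_one_iff.1 (T.cP_sq hD z) with hc | hc <;> rw [hc] at hspec
        · exact ⟨D, hD, hDM, by rw [hspec, one_smul], rfl⟩
        obtain ⟨e, he⟩ : ∃ e, T.B e z = 1 := by
          by_contra hne
          push Not at hne
          exact hz (T.nondeg z fun x => (T.sk z x).trans ((zmod2_cases _).resolve_right (hne x)))
        refine ⟨D * T.gl e, mul_mem hD (T.gl_mem_N e), ?_, ?_, ?_⟩
        · have := mul_mem hDM (hNM (sp.bd_one_gl_mem_N e))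
          rwa [← map_mul, Prod.mk_mul_mk, mul_one] at this
        · rw [Units.val_mul, Sys.coe_gl, mul_assoc, T.comm e z, he, sgn_one, mul_smul_comm, ← mul_assoc,
            hspec, smul_mul_assoc, smul_smul, neg_mul_neg, one_mul, one_smul, mul_assoc]
        · rw [(T.act_mul hD (T.gl_mem_N e) w).1, (T.act_gl e w).1]
      rw [← hD'w]
      exact sp.lemmaX hproj hD'M hz hqz hD'z hzw (T.act_spec hD' w)
  have hfix : ∀ x, T.sP C x = x := hrig.eq_id T.quad hk ⟨C, hC, hCM, fun _ => rfl⟩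
  obtain ⟨e, c, hcc, hCe⟩ := T.exists_of_fixed h2 hC hfix
  rcases mul_self_eq_one_iff.1 hcc with rfl | rfl
  · rw [show C = T.gl e from Units.ext (by rw [hCe, one_smul]; rfl)]
    exact sp.bd_one_gl_mem_N e
  · have e1 : sp.bd (1, C) = S.gl a * sp.bd (1, T.gl e) := Units.ext (sp.Φ_inj (by
      rw [Units.val_mul, map_mul, sp.Φ_bd, sp.Φ_bd, Sys.coe_gl, sp.P_a, fromBlocks_multiply, hCe]
      simp [hT]))
    rw [e1]
    exact mul_mem (S.gl_mem_N a) (sp.bd_one_gl_mem_N e)

/-- Also the elements commuting with the label up to sign. -/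
theorem mem_N_of_small' (hk : 3 ≤ k) (h2 : (2 : F) ≠ 0) (hNM : S.N ≤ M) (hM : M ≤ isom S.f)
    (hproj : ∀ b, b ≠ 0 → S.q b = 0 → S.Proj M b) (hsm : sp.Small M) {g : GL ι F} (hg : g ∈ M)
    {c : F} (hc : (g : Matrix ι ι F) * S.P a = c • (S.P a * (g : Matrix ι ι F))) : g ∈ S.N := by
  have hcc : c * c = 1 := S.smul_sq_eq_one (g := g * S.gl a) (h := S.gl a * g)
    (mul_mem (hM hg) (S.gl_mem_isom a)) (mul_mem (S.gl_mem_isom a) (hM hg))
    (by rw [Units.val_mul, Units.val_mul, Sys.coe_gl]; exact hc)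
  rcases mul_self_eq_one_iff.1 hcc with rfl | rfl
  · exact sp.mem_N_of_small hk h2 hNM hproj hsm hg (by rw [hc, one_smul])
  · refine (S.N.mul_mem_cancel_right (S.gl_mem_N u)).1
      (sp.mem_N_of_small hk h2 hNM hproj hsm (mul_mem hg (hNM (S.gl_mem_N u))) ?_)
    rw [Units.val_mul, Sys.coe_gl, mul_assoc, S.comm u a, S.sk, sp.B_au, sgn_one, mul_smul_comm,
      ← mul_assoc, hc, smul_mul_assoc, smul_smul, neg_mul_neg, one_mul, one_smul, mul_assoc]

end Split

end CfsgLib.Geometric.SympType
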