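import Cfsg.Agent.Lib.Geometric.SympType.Big
import Cfsg.Agent.Lib.Geometric.SympType.Small
import Cfsg.Agent.Lib.Geometric.SympType.SplitExists

/-!
In a proper overgroup of the normaliser, centralisers of singular labels lie in the normaliser,
given the dichotomy for the smaller systems.
-/

set_option autoImplicit false
set_option linter.unusedSectionVars false

namespace CfsgLib.Geometric.SympType

open Matrix CfsgLib.Geometric

variable {k : ℕ} {ι : Type} [Fintype ι] [DecidableEq ι] {F : Type*} [Field F]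

/-- Every singular label has a split whose projections normalise the smaller system. -/
theorem exists_small_split [Fintype F] {p : ℕ} (hk : 3 ≤ k) (hp : p.Prime) (hcard : Fintype.card F = p)
    (h2 : (2 : F) ≠ 0) (S : Sys (k + 1) ι F) (hT : ∀ T : Sys k (K k) F, T.Dichotomy)
    {M : Subgroup (GL ι F)} (hNM : S.N ≤ M) (hM : M ≤ isom S.f) (hne : M ≠ isom S.f)
    {a : L (k + 1)} (ha : a ≠ 0) (hqa : S.q a = 0) :
    ∃ (u : L (k + 1)) (sp : Split S a u), sp.Small M := by
  obtain ⟨u, hqu, hau⟩ := S.exists_singular_dual ha hqa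
  obtain ⟨sp⟩ := exists_split h2 S hqa hqu hau
  exact ⟨u, sp, (hT sp.T _ (sp.N_le_projGroup hNM) (sp.projGroup_le hM)).resolve_right
    fun h => hne (sp.eq_top_of_big hk hp hcard h2 hNM hM h.ge)⟩

/-- The centralisers of singular labels in a proper overgroup lie in the normaliser. -/
theorem local_singular [Fintype F] {p : ℕ} (hk : 3 ≤ k) (hp : p.Prime) (hcard : Fintype.card F = p)
    (h2 : (2 : F) ≠ 0) (S : Sys (k + 1) ι F) (hT : ∀ T : Sys k (K k) F, T.Dichotomy)
    {M : Subgroup (GL ι F)} (hNM : S.N ≤ M) (hM : M ≤ isom S.f) (hne : M ≠ isom S.f)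
    {a : L (k + 1)} (ha : a ≠ 0) (hqa : S.q a = 0) {g : GL ι F} (hg : g ∈ M) {c : F}
    (hc : (g : Matrix ι ι F) * S.P a = c • (S.P a * (g : Matrix ι ι F))) : g ∈ S.N := by
  have hproj : ∀ b, b ≠ 0 → S.q b = 0 → S.Proj M b := fun b hb hqb => by
    obtain ⟨u, sp, hsp⟩ := exists_small_split hk hp hcard h2 S hT hNM hM hne hb hqb
    exact sp.proj_of_small h2 hsp
  obtain ⟨u, sp, hsp⟩ := exists_small_split hk hp hcard h2 S hT hNM hM hne ha hqa
  exact sp.mem_N_of_small' hk h2 hNM hM hproj hsp hg hc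

end CfsgLib.Geometric.SympType
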