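import Cfsg.Agent.Lib.Geometric.SympType.Pair

/-!
The normaliser of a system is transitive on the non-zero labels of a given square.
-/

set_option autoImplicit false
set_option linter.unusedSectionVars false

namespace CfsgLib.Geometric.SympType

open Module

variable {k : ℕ} {ι : Type} [Fintype ι] [DecidableEq ι] {F : Type*} [Field F]

namespace Sys

variable (S : Sys k ι F)

private theorem transitive_step (hk : 2 ≤ k) (h2 : (2 : F) ≠ 0) {a b : L k} (h : S.q a = S.q b)
    (hab : S.B a b = 1) : ∃ n ∈ S.N, S.sP n a = b := by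
  let Q := S.quad
  obtain ⟨v, hv, hv1⟩ := Q.exists_coset (W := Q.perp (Submodule.span (ZMod 2) ((({b} : Finset (L k)) : Set (L k)))))
    (by have := Q.le_finrank_perp_span ({b} : Finset (L k)); simp only [Finset.card_singleton] at this; omega) 0 1
  rw [zero_add] at hv1
  have hvb : S.B b v = 0 := hv b (Submodule.subset_span (by simp))
  have hw : S.q (a + b) = 1 := by
    rw [S.q_add, h, hab, CharTwo.add_self_eq_zero, zero_add]
  obtain ⟨n, hn, hz⟩ := S.exists_pair h2 (v := v) (w := a + b) hv1 hw
  refine ⟨n, hn, ?_⟩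
  have h1 : S.B a (a + b) = 1 := by rw [map_add, S.B_self, hab, zero_add]
  rw [hz, h1, one_smul, ← add_assoc a a b, two_torsion, zero_add, hvb, zero_smul, add_zero]

/-- Transitivity on the non-zero labels with equal value of the form. -/
theorem transitive (hk : 3 ≤ k) (h2 : (2 : F) ≠ 0) {a b : L k} (ha : a ≠ 0) (hb : b ≠ 0)
    (h : S.q a = S.q b) : ∃ n ∈ S.N, S.sP n a = b := by
  let Q := S.quad
  rcases eq_or_ne a b with rfl | hne
  · exact ⟨1, one_mem _, S.act_one a⟩
  rcases zmod2_cases (S.B a b) with h0 | h1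
  · obtain ⟨d₀, hd₁, hd₂⟩ := Q.exists_dual ha hb hne 1 1
    obtain ⟨w, hw, hq⟩ := Q.exists_coset
      (W := Q.perp (Submodule.span (ZMod 2) ((({a, b} : Finset (L k)) : Set (L k)))))
      (by have := Q.le_finrank_perp_span ({a, b} : Finset (L k))
          have := Finset.card_le_two (a := a) (b := b); omega) d₀ (S.q a)
    have had : S.B a (d₀ + w) = 1 := by
      rw [map_add, show S.B a d₀ = 1 from hd₁, show S.B a w = 0 from hw a (Submodule.subset_span (by simp)),
        add_zero]
    have hdb : S.B (d₀ + w) b = 1 := by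
      rw [S.sk, map_add, show S.B b d₀ = 1 from hd₂,
        show S.B b w = 0 from hw b (Submodule.subset_span (by simp)), add_zero]
    have hqd : S.q (d₀ + w) = S.q a := hq
    obtain ⟨n, hn, e⟩ := S.transitive_step (by omega) h2 hqd.symm had
    obtain ⟨n', hn', e'⟩ := S.transitive_step (by omega) h2 (hqd.trans h) hdb
    exact ⟨n' * n, mul_mem hn' hn, by rw [(S.act_mul hn' hn a).1, e, e']⟩
  · exact S.transitive_step (by omega) h2 h h1

end Sys

end CfsgLib.Geometric.SympType
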