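import Mathlib

/-!
Non-degenerate quadratic spaces of dimension `2 k` over `𝔽₂`.
-/

set_option autoImplicit false

namespace CfsgLib.Geometric.SympType

open Module

/-- A non-degenerate quadratic space of dimension `2 k` over `𝔽₂`. -/
structure Quad (k : ℕ) where
  q : (Fin (2 * k) → ZMod 2) → ZMod 2
  B : (Fin (2 * k) → ZMod 2) →ₗ[ZMod 2] (Fin (2 * k) → ZMod 2) →ₗ[ZMod 2] ZMod 2
  q_add : ∀ v w, q (v + w) = q v + q w + B v w
  nondeg : ∀ v, (∀ w, B v w = 0) → v = 0

theorem zmod2_cases : ∀ c : ZMod 2, c = 0 ∨ c = 1 := by decide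

theorem zmod2_ne_zero {c : ZMod 2} (h : c ≠ 0) : c = 1 := (zmod2_cases c).resolve_left h

theorem vec_add_self {n : ℕ} (v : Fin n → ZMod 2) : v + v = 0 :=
  funext fun _ => CharTwo.add_self_eq_zero _

theorem vec_add_eq_zero {n : ℕ} {v w : Fin n → ZMod 2} : v + w = 0 ↔ v = w := by
  constructor
  · intro h
    calc v = v + (w + w) := by rw [vec_add_self, add_zero]
      _ = v + w + w := (add_assoc _ _ _).symm
      _ = w := by rw [h, zero_add]
  · rintro rfl
    exact vec_add_self v

namespace Quad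

variable {k : ℕ} (Q : Quad k)

local notation "V" => Fin (2 * k) → ZMod 2

theorem sk (v w : V) : Q.B v w = Q.B w v := by
  have h1 := Q.q_add v w
  have h2 := Q.q_add w v
  rw [add_comm w v, h1, add_comm (Q.q w)] at h2
  exact add_left_cancel h2

theorem q_zero : Q.q 0 = 0 := by
  have h := Q.q_add 0 0
  simp only [add_zero, map_zero] at h
  exact add_eq_left.1 h.symm

theorem alt (v : V) : Q.B v v = 0 := by
  have h := Q.q_add v v
  rw [vec_add_self, Q.q_zero, CharTwo.add_self_eq_zero, zero_add] at h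
  exact h.symm

theorem nondegenerate : LinearMap.BilinForm.Nondegenerate (Q.B : LinearMap.BilinForm (ZMod 2) V) :=
  ⟨fun v h => Q.nondeg v h, fun v h => Q.nondeg v fun w => (Q.sk v w).trans (h w)⟩

/-- The orthogonal of a subspace. -/
abbrev perp (W : Submodule (ZMod 2) V) : Submodule (ZMod 2) V :=
  LinearMap.BilinForm.orthogonal (Q.B : LinearMap.BilinForm (ZMod 2) V) W

theorem mem_perp {W : Submodule (ZMod 2) V} {v : V} : v ∈ Q.perp W ↔ ∀ w ∈ W, Q.B w v = 0 :=
  Iff.rfl

theorem finrank_perp (W : Submodule (ZMod 2) V) :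
    finrank (ZMod 2) (Q.perp W) = 2 * k - finrank (ZMod 2) W := by
  rw [LinearMap.BilinForm.finrank_orthogonal Q.nondegenerate, finrank_fin_fun]

theorem perp_perp (W : Submodule (ZMod 2) V) : Q.perp (Q.perp W) = W :=
  LinearMap.BilinForm.orthogonal_orthogonal Q.nondegenerate (fun v w h => (Q.sk w v).trans h) W

/-- The orthogonal of at most `n` vectors has codimension at most `n`. -/
theorem le_finrank_perp_span (s : Finset V) :
    2 * k ≤ finrank (ZMod 2) (Q.perp (Submodule.span (ZMod 2) (s : Set V))) + s.card := by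
  rw [finrank_perp]
  have := finrank_span_finset_le_card (R := ZMod 2) s
  simp only [Set.finrank] at this
  omega

/-- A subspace of dimension at least three has a non-zero singular vector. -/
theorem exists_singular {W : Submodule (ZMod 2) V} (hW : 3 ≤ finrank (ZMod 2) W) :
    ∃ v ∈ W, v ≠ 0 ∧ Q.q v = 0 := by
  obtain ⟨p, hp, hp0⟩ := Submodule.exists_mem_ne_zero_of_ne_bot (p := W)
    (fun h => by rw [h, finrank_bot] at hW; omega)
  rcases zmod2_cases (Q.q p) with h | h
  · exact ⟨p, hp, hp0, h⟩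
  have hd : 2 ≤ finrank (ZMod 2) (W ⊓ LinearMap.ker (Q.B p) : Submodule (ZMod 2) V) := by
    have h1 := Submodule.finrank_sup_add_finrank_inf_eq W (LinearMap.ker (Q.B p))
    have h2 := Submodule.finrank_le (W ⊔ LinearMap.ker (Q.B p))
    have h3 := LinearMap.finrank_range_add_finrank_ker (Q.B p)
    have h4 : finrank (ZMod 2) (LinearMap.range (Q.B p)) ≤ 1 :=
      (Submodule.finrank_le _).trans_eq (finrank_self _)
    rw [finrank_fin_fun] at h2 h3
    omega
  obtain ⟨r, hr, hrs⟩ := SetLike.exists_of_lt (show Submodule.span (ZMod 2) {p} <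
      (W ⊓ LinearMap.ker (Q.B p) : Submodule (ZMod 2) V) from Submodule.lt_of_le_of_finrank_lt_finrank
    ((Submodule.span_singleton_le_iff_mem _ _).2 ⟨hp, Q.alt p⟩)
    (by rw [finrank_span_singleton hp0]; omega))
  rcases zmod2_cases (Q.q r) with h' | h'
  · exact ⟨r, hr.1, fun h0 => hrs (h0 ▸ Submodule.zero_mem _), h'⟩
  refine ⟨p + r, W.add_mem hp hr.1, fun h0 => hrs ?_, ?_⟩
  · rw [← vec_add_eq_zero.1 h0]; exact Submodule.mem_span_singleton_self p
  · rw [Q.q_add, h, h', show Q.B p r = 0 from hr.2]; decide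

/-- On a coset of a subspace of dimension more than `k` the form takes both values. -/
theorem exists_coset {W : Submodule (ZMod 2) V} (hW : k < finrank (ZMod 2) W) (d : V) (e : ZMod 2) :
    ∃ w ∈ W, Q.q (d + w) = e := by
  by_contra h
  push Not at h
  have hne : ∀ a b : ZMod 2, a ≠ b → ∀ c, c ≠ b → c = a := by decide
  have hconst : ∀ w ∈ W, Q.q (d + w) = Q.q d := by
    intro w hw
    have h0 := h 0 W.zero_mem
    rw [add_zero] at h0
    exact hne _ _ h0 _ (h w hw)
  have hlin : ∀ w ∈ W, Q.q w = Q.B d w := by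
    intro w hw
    have h1 := hconst w hw
    rw [Q.q_add, add_assoc, add_eq_left, add_eq_zero_iff_eq_neg, CharTwo.neg_eq] at h1
    exact h1
  have hle : W ≤ Q.perp W := by
    intro w hw v hv
    show Q.B v w = 0
    have h1 := hlin _ (W.add_mem hv hw)
    rw [Q.q_add, hlin v hv, hlin w hw, map_add, add_eq_left] at h1
    exact h1
  have := Submodule.finrank_mono hle
  rw [finrank_perp] at this
  omega

/-- A vector with prescribed products with two independent vectors. -/
theorem exists_dual {a b : V} (ha : a ≠ 0) (hb : b ≠ 0) (hab : a ≠ b) (α β : ZMod 2) :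
    ∃ d, Q.B a d = α ∧ Q.B b d = β := by
  let χ : V →ₗ[ZMod 2] ZMod 2 × ZMod 2 := (Q.B a).prod (Q.B b)
  suffices h : Function.Surjective χ by
    obtain ⟨d, hd⟩ := h (α, β)
    exact ⟨d, congrArg Prod.fst hd, congrArg Prod.snd hd⟩
  have key : ∀ v : V, v ≠ 0 → ∃ d, Q.B v d = 1 := by
    intro v hv
    by_contra h
    push Not at h
    exact hv (Q.nondeg v fun w => (zmod2_cases _).resolve_right (h w))
  obtain ⟨d1, h1⟩ := key a ha
  obtain ⟨d2, h2⟩ := key b hb
  obtain ⟨d3, h3⟩ := key (a + b) (fun h => hab (vec_add_eq_zero.1 h))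
  rw [map_add, LinearMap.add_apply] at h3
  have tbl : ∀ b1 a2 a3 b3 : ZMod 2, a3 + b3 = 1 → ∀ x y : ZMod 2, ∃ c1 c2 c3 : ZMod 2,
      c1 * 1 + c2 * a2 + c3 * a3 = x ∧ c1 * b1 + c2 * 1 + c3 * b3 = y := by decide
  rintro ⟨x, y⟩
  obtain ⟨c1, c2, c3, e1, e2⟩ := tbl (Q.B b d1) (Q.B a d2) (Q.B a d3) (Q.B b d3) h3 x y
  refine ⟨c1 • d1 + c2 • d2 + c3 • d3, Prod.ext ?_ ?_⟩
  · show Q.B a _ = x
    simp only [map_add, map_smul, smul_eq_mul, h1]
    exact e1
  · show Q.B b _ = y
    simp only [map_add, map_smul, smul_eq_mul, h2]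
    exact e2

/-- A coisotropic subspace contains a totally singular subspace of dimension at least `k - 1`, of
dimension `k` if it is itself totally singular. -/
theorem exists_totally_singular {X : Submodule (ZMod 2) V} (hX : Q.perp X ≤ X) :
    ∃ Z ≤ X, (∀ z ∈ Z, Q.q z = 0) ∧ k ≤ finrank (ZMod 2) Z + 1 := by
  have key : ∀ n (I : Submodule (ZMod 2) V), k - finrank (ZMod 2) I = n → I ≤ Q.perp I →
      ∃ J, I ≤ J ∧ J ≤ Q.perp J ∧ finrank (ZMod 2) J = k := by
    intro n
    induction n with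
    | zero =>
      intro I hk hI
      refine ⟨I, le_rfl, hI, ?_⟩
      have h := Submodule.finrank_mono hI
      rw [Q.finrank_perp] at h
      omega
    | succ n ih =>
      intro I hk hI
      obtain ⟨v, hv, hvI⟩ : ∃ v ∈ Q.perp I, v ∉ I := by
        by_contra h
        push Not at h
        have h' := Submodule.finrank_mono (show Q.perp I ≤ I from h)
        rw [Q.finrank_perp] at h'
        omega
      have hlt : I < I ⊔ Submodule.span (ZMod 2) {v} :=
        left_lt_sup.2 fun hle => hvI (hle (Submodule.mem_span_singleton_self v))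
      have hI' : I ⊔ Submodule.span (ZMod 2) {v} ≤ Q.perp (I ⊔ Submodule.span (ZMod 2) {v}) := by
        intro y hy
        rw [mem_perp]
        intro w hw
        obtain ⟨y₁, hy₁, y₂, hy₂, rfl⟩ := Submodule.mem_sup.1 hy
        obtain ⟨w₁, hw₁, w₂, hw₂, rfl⟩ := Submodule.mem_sup.1 hw
        obtain ⟨c, rfl⟩ := Submodule.mem_span_singleton.1 hy₂
        obtain ⟨d, rfl⟩ := Submodule.mem_span_singleton.1 hw₂
        simp only [map_add, LinearMap.add_apply, map_smul, LinearMap.smul_apply,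
          hI hy₁ w₁ hw₁, hv w₁ hw₁, Q.sk v y₁, hv y₁ hy₁, Q.alt, smul_zero, add_zero]
      have h1 := Submodule.finrank_lt_finrank_of_lt hlt
      obtain ⟨J, hJ, hJ'⟩ := ih _ (by
        have h2 := Submodule.finrank_add_le_finrank_add_finrank I (Submodule.span (ZMod 2) {v})
        have h3 : finrank (ZMod 2) (Submodule.span (ZMod 2) {v}) ≤ 1 := (finrank_span_le_card _).trans (by simp)
        omega) hI'
      exact ⟨J, le_trans le_sup_left hJ, hJ'⟩
  obtain ⟨J, hIJ, hJ, hJk⟩ := key _ (Q.perp X) rfl (by rw [Q.perp_perp]; exact hX)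
  have hJX : J ≤ X := by
    have h : Q.perp J ≤ Q.perp (Q.perp X) := fun _ hv w hw => hv w (hIJ hw)
    rw [Q.perp_perp] at h
    exact hJ.trans h
  let qJ : J →ₗ[ZMod 2] ZMod 2 :=
    AddMonoidHom.toZModLinearMap 2 (AddMonoidHom.mk' (fun j : J => Q.q j) fun i j => by
      rw [Submodule.coe_add, Q.q_add, hJ j.2 i i.2, add_zero])
  refine ⟨(LinearMap.ker qJ).map J.subtype, (Submodule.map_subtype_le _ _).trans hJX, ?_, ?_⟩
  · rintro _ ⟨j, hj, rfl⟩
    exact hj
  · have h1 := LinearMap.finrank_range_add_finrank_ker qJ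
    have h2 : finrank (ZMod 2) (LinearMap.range qJ) ≤ 1 :=
      (Submodule.finrank_le _).trans_eq (Module.finrank_self _)
    rw [hJk] at h1
    rw [Submodule.finrank_map_subtype_eq]
    omega

/-- A coisotropic subspace contains two orthogonal singular vectors. -/
theorem exists_singular_pair (hk : 3 ≤ k) {X : Submodule (ZMod 2) V} (hX : Q.perp X ≤ X) :
    ∃ a b, a ∈ X ∧ b ∈ X ∧ a ≠ 0 ∧ b ≠ 0 ∧ a ≠ b ∧ Q.q a = 0 ∧ Q.q b = 0 ∧ Q.B a b = 0 := by
  obtain ⟨Z, hZX, hZ, hZk⟩ := Q.exists_totally_singular hX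
  obtain ⟨a, ha, ha0⟩ := Submodule.exists_mem_ne_zero_of_ne_bot (p := Z)
    (fun h => by rw [h, finrank_bot] at hZk; omega)
  obtain ⟨b, hb, hb'⟩ := SetLike.exists_of_lt (show Submodule.span (ZMod 2) {a} < Z from
    Submodule.lt_of_le_of_finrank_lt_finrank ((Submodule.span_singleton_le_iff_mem _ _).2 ha)
      (by rw [finrank_span_singleton ha0]; omega))
  refine ⟨a, b, hZX ha, hZX hb, ha0, fun h => hb' (h ▸ Submodule.zero_mem _), fun h => hb' ?_,
    hZ a ha, hZ b hb, ?_⟩
  · rw [← h]; exact Submodule.mem_span_singleton_self a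
  · have h := hZ _ (Z.add_mem ha hb)
    rw [Q.q_add, hZ a ha, hZ b hb, zero_add, zero_add] at h
    exact h

end Quad

end CfsgLib.Geometric.SympType
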