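import Cfsg.Agent.Lib.Geometric.SympType.SplitDef

/-!
Block diagonal elements in split coordinates of a minus type system, and the ones lying in its
normaliser.
-/

set_option autoImplicit false
set_option linter.unusedSectionVars false

namespace CfsgLib.Geometric.SympType

open Matrix Cfsg.Geo CfsgLib.Geometric
open CfsgLib.Geometric.PauliMax (sgn sgn_zero sgn_one sgn_cases sgn_sq sgn_inj sgn_add sgn_ne_zero)

variable {k : ℕ} {ι : Type} [Fintype ι] [DecidableEq ι] {F : Type*} [Field F]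

local notation "𝕂" => Matrix (K k) (K k) F

namespace Split

variable {S : Sys (k + 1) ι F} {a u : L (k + 1)} (sp : Split S a u)

theorem Φ_inj {X Y : Matrix ι ι F} (h : sp.Φ X = sp.Φ Y) : X = Y := sp.Φ.injective h

theorem Φ_smul (c : F) (X : Matrix ι ι F) : sp.Φ (c • X) = c • sp.Φ X := map_smul sp.Φ c X

/-- Block diagonal elements. -/
def bd : GL (K k) F × GL (K k) F →* GL ι F where
  toFun p :=
    { val := sp.Φ.symm (fromBlocks (p.1 : 𝕂) 0 0 (p.2 : 𝕂))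
      inv := sp.Φ.symm (fromBlocks ((p.1⁻¹ : GL (K k) F) : 𝕂) 0 0 ((p.2⁻¹ : GL (K k) F) : 𝕂))
      val_inv := by rw [← map_mul, fromBlocks_multiply]; simp
      inv_val := by rw [← map_mul, fromBlocks_multiply]; simp }
  map_one' := by ext : 1; simp
  map_mul' p q := by
    ext : 1
    show sp.Φ.symm _ = sp.Φ.symm _ * sp.Φ.symm _
    rw [← map_mul, fromBlocks_multiply]
    simp

theorem Φ_bd (A B : GL (K k) F) :
    sp.Φ ((sp.bd (A, B) : GL ι F) : Matrix ι ι F) = fromBlocks (A : 𝕂) 0 0 (B : 𝕂) :=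
  sp.Φ.apply_symm_apply _

/-- The action of a block diagonal element in coordinates. -/
theorem ap_bd (A B : GL (K k) F) (z : K k ⊕ K k → F) :
    ap (sp.bd (A, B)) (sp.E z) = sp.E (Sum.elim (ap A (z ∘ Sum.inl)) (ap B (z ∘ Sum.inr))) := by
  rw [ap_def, sp.Φ_spec, sp.Φ_bd, fromBlocks_mulVec]
  simp [ap_def]

theorem bd_mem_isom {A B : GL (K k) F} :
    sp.bd (A, B) ∈ isom S.f ↔ A ∈ isom sp.T.f ∧ B ∈ isom sp.T.f := by
  have h0 : sp.T.f 0 0 = 0 := sp.T.hf.alternating 0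
  constructor
  · intro h
    constructor <;> refine mem_isom_iff.2 fun x y => ?_
    · have e := mem_isom_iff.1 h (sp.E (Sum.elim x 0)) (sp.E (Sum.elim y 0))
      simpa [ap_bd, sp.f_E, h0, ap_zero] using e
    · have e := mem_isom_iff.1 h (sp.E (Sum.elim 0 x)) (sp.E (Sum.elim 0 y))
      simpa [ap_bd, sp.f_E, h0, ap_zero] using e
  · rintro ⟨hA, hB⟩
    refine mem_isom_iff.2 fun x y => ?_
    obtain ⟨x, rfl⟩ := sp.E.surjective x
    obtain ⟨y, rfl⟩ := sp.E.surjective y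
    rw [sp.ap_bd, sp.ap_bd, sp.f_E, sp.f_E, Sum.elim_comp_inl, Sum.elim_comp_inr, Sum.elim_comp_inl,
      Sum.elim_comp_inr, mem_isom_iff.1 hA, mem_isom_iff.1 hB]

theorem exists_bd (sp : Split S a u) (h2 : (2 : F) ≠ 0) {g : GL ι F}
    (hg : (g : Matrix ι ι F) * S.P a = S.P a * (g : Matrix ι ι F)) :
    ∃ A B : GL (K k) F, sp.bd (A, B) = g := by
  have key : ∀ h : GL ι F, (h : Matrix ι ι F) * S.P a = S.P a * (h : Matrix ι ι F) →
      sp.Φ (h : Matrix ι ι F) =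
        fromBlocks (sp.Φ (h : Matrix ι ι F)).toBlocks₁₁ 0 0 (sp.Φ (h : Matrix ι ι F)).toBlocks₂₂ := by
    intro h hh
    have e := congrArg sp.Φ hh
    rw [map_mul, map_mul, sp.P_a] at e
    set X := sp.Φ (h : Matrix ι ι F)
    rw [← fromBlocks_toBlocks X, fromBlocks_multiply, fromBlocks_multiply] at e
    simp only [mul_one, mul_zero, zero_mul, one_mul, add_zero, zero_add, fromBlocks_inj, mul_neg,
      neg_mul] at e
    obtain ⟨-, e12, e21, -⟩ := e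
    have z : ∀ Y : 𝕂, -Y = Y → Y = 0 := fun Y hY => by
      have : (2 : F) • Y = 0 := by rw [two_smul]; nth_rewrite 1 [← hY]; rw [neg_add_cancel]
      exact (smul_eq_zero.1 this).resolve_left h2
    conv_lhs => rw [← fromBlocks_toBlocks X]
    rw [z _ e12, z _ e21.symm]
  have hgi : ((g⁻¹ : GL ι F) : Matrix ι ι F) * S.P a = S.P a * ((g⁻¹ : GL ι F) : Matrix ι ι F) :=
    Commute.units_inv_left (show Commute ((g : GL ι F) : Matrix ι ι F) (S.P a) from hg)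
  have e1 : sp.Φ (g : Matrix ι ι F) * sp.Φ ((g⁻¹ : GL ι F) : Matrix ι ι F) = 1 := by
    rw [← map_mul, Units.mul_inv, map_one]
  have e2 : sp.Φ ((g⁻¹ : GL ι F) : Matrix ι ι F) * sp.Φ (g : Matrix ι ι F) = 1 := by
    rw [← map_mul, Units.inv_mul, map_one]
  rw [key g hg, key g⁻¹ hgi, fromBlocks_multiply, ← fromBlocks_one] at e1 e2
  simp only [mul_zero, zero_mul, add_zero, zero_add, fromBlocks_inj] at e1 e2
  refine ⟨⟨_, _, e1.1, e2.1⟩, ⟨_, _, e1.2.2.2, e2.2.2.2⟩, ?_⟩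
  exact Units.ext (sp.Φ_inj (by rw [sp.Φ_bd]; exact (key g hg).symm))

include sp in
theorem span_labels : Submodule.span (ZMod 2) (Set.range sp.φ ∪ {a, u}) = ⊤ := by
  refine eq_top_iff.2 fun w _ => ?_
  obtain ⟨y, d, e, rfl⟩ := sp.cases w
  refine Submodule.add_mem _ (Submodule.add_mem _ (Submodule.subset_span (Or.inl ⟨y, rfl⟩))
    (Submodule.smul_mem _ _ (Submodule.subset_span (Or.inr (Or.inl rfl)))))
    (Submodule.smul_mem _ _ (Submodule.subset_span (Or.inr (Or.inr rfl))))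

/-- To lie in `N`, a block diagonal isometry only has to send the three kinds of generating labels
to labels. -/
theorem bd_mem_N {A B : GL (K k) F} (hA : A ∈ isom sp.T.f) (hB : B ∈ isom sp.T.f)
    (hφ : ∀ y, ∃ (w : L (k + 1)) (c : F), fromBlocks (A : 𝕂) 0 0 (B : 𝕂) * sp.Φ (S.P (sp.φ y)) =
      c • (sp.Φ (S.P w) * fromBlocks (A : 𝕂) 0 0 (B : 𝕂)))
    (hu : ∃ (w : L (k + 1)) (c : F), fromBlocks (A : 𝕂) 0 0 (B : 𝕂) * sp.Φ (S.P u) =
      c • (sp.Φ (S.P w) * fromBlocks (A : 𝕂) 0 0 (B : 𝕂))) : sp.bd (A, B) ∈ S.N := by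
  refine ⟨sp.bd_mem_isom.2 ⟨hA, hB⟩, S.perm_of_closure sp.span_labels fun v hv => ?_⟩
  have lift : (∃ (w : L (k + 1)) (c : F), fromBlocks (A : 𝕂) 0 0 (B : 𝕂) * sp.Φ (S.P v) =
      c • (sp.Φ (S.P w) * fromBlocks (A : 𝕂) 0 0 (B : 𝕂))) → ∃ (w : L (k + 1)) (c : F),
      ((sp.bd (A, B) : GL ι F) : Matrix ι ι F) * S.P v = c • (S.P w * ((sp.bd (A, B) : GL ι F) : Matrix ι ι F)) := by
    rintro ⟨w, c, h⟩
    exact ⟨w, c, sp.Φ_inj (by rw [map_mul, sp.Φ_smul, map_mul, sp.Φ_bd]; exact h)⟩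
  apply lift
  rcases hv with ⟨y, rfl⟩ | rfl | rfl
  · exact hφ y
  · refine ⟨v, 1, ?_⟩
    rw [one_smul, sp.P_a, fromBlocks_multiply, fromBlocks_multiply]
    simp
  · exact hu

theorem bd_diag_mem_N {A : GL (K k) F} (hA : A ∈ sp.T.N) : sp.bd (A, A) ∈ S.N := by
  refine sp.bd_mem_N hA.1 hA.1 (fun y => ?_) ⟨u, 1, ?_⟩
  · obtain ⟨w, c, h⟩ := hA.2 y
    refine ⟨sp.φ w, c, ?_⟩
    simp [sp.P_φ, fromBlocks_multiply, fromBlocks_smul, h]
  · simp [sp.P_u, fromBlocks_multiply]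

theorem bd_one_gl_mem_N (y : L k) : sp.bd (1, sp.T.gl y) ∈ S.N := by
  refine sp.bd_mem_N (one_mem _) (sp.T.gl_mem_isom y) (fun z => ?_) ?_
  · rcases zmod2_cases (sp.T.B y z) with h | h
    · refine ⟨sp.φ z, 1, ?_⟩
      simp [sp.P_φ, fromBlocks_multiply, sp.T.comm y z, h, sgn_zero]
    · obtain ⟨l, hl, hl'⟩ := S.P_add_coeff (sp.φ z) a
      refine ⟨sp.φ z + a, l⁻¹, ?_⟩
      rw [hl', sp.Φ_smul, map_mul, smul_mul_assoc, smul_smul, inv_mul_cancel₀ hl, one_smul, sp.P_a,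
        sp.P_φ]
      simp [fromBlocks_multiply, sp.T.comm y z, h, sgn_one]
  · rcases zmod2_cases (sp.T.q y) with h | h
    · obtain ⟨l, hl, hl'⟩ := S.P_add_coeff (sp.φ y) u
      refine ⟨sp.φ y + u, l⁻¹, ?_⟩
      rw [hl', sp.Φ_smul, map_mul, smul_mul_assoc, smul_smul, inv_mul_cancel₀ hl, one_smul, sp.P_u,
        sp.P_φ]
      simp [fromBlocks_multiply, sp.T.sq y, h, sgn_zero]
    · obtain ⟨l, hl, hl'⟩ := S.P_add_coeff (sp.φ y + a) u
      obtain ⟨l', hl₀, hl''⟩ := S.P_add_coeff (sp.φ y) a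
      refine ⟨sp.φ y + a + u, -(l * l')⁻¹, ?_⟩
      rw [hl', hl'', smul_mul_assoc l', smul_smul l, sp.Φ_smul, map_mul, map_mul, smul_mul_assoc,
        smul_smul, neg_mul, inv_mul_cancel₀ (mul_ne_zero hl hl₀), neg_one_smul, sp.P_a, sp.P_u,
        sp.P_φ]
      simp [fromBlocks_multiply, fromBlocks_neg, sp.T.sq y, h, sgn_one]

theorem bd_swap (A B : GL (K k) F) : sp.bd (B, A) = S.gl u * sp.bd (A, B) * (S.gl u)⁻¹ := by
  refine Units.ext (sp.Φ_inj ?_)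
  have hinv : (((S.gl u)⁻¹ : GL ι F) : Matrix ι ι F) = S.P u := by
    show sgn F (S.q u) • S.P u = S.P u
    rw [sp.q_u, sgn_zero, one_smul]
  rw [Units.val_mul, Units.val_mul, hinv, map_mul, map_mul, sp.Φ_bd, sp.Φ_bd, Sys.coe_gl, sp.P_u,
    fromBlocks_multiply, fromBlocks_multiply]
  simp

/-- The projections on the first block. -/
def projGroup (M : Subgroup (GL ι F)) : Subgroup (GL (K k) F) :=
  (M.comap sp.bd).map (MonoidHom.fst _ _)

/-- All projections normalise the smaller system. -/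
def Small (M : Subgroup (GL ι F)) : Prop := sp.projGroup M ≤ sp.T.N

variable {M : Subgroup (GL ι F)}

theorem bd_swap_mem (hNM : S.N ≤ M) {A B : GL (K k) F} (h : sp.bd (A, B) ∈ M) : sp.bd (B, A) ∈ M := by
  rw [sp.bd_swap]
  exact mul_mem (mul_mem (hNM (S.gl_mem_N u)) h) (inv_mem (hNM (S.gl_mem_N u)))

theorem mem_projGroup {A B : GL (K k) F} (h : sp.bd (A, B) ∈ M) : A ∈ sp.projGroup M :=
  ⟨(A, B), h, rfl⟩

theorem mem_projGroup₂ (hNM : S.N ≤ M) {A B : GL (K k) F} (h : sp.bd (A, B) ∈ M) :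
    B ∈ sp.projGroup M :=
  sp.mem_projGroup (sp.bd_swap_mem hNM h)

theorem N_le_projGroup (hNM : S.N ≤ M) : sp.T.N ≤ sp.projGroup M := fun _ hA =>
  sp.mem_projGroup (hNM (sp.bd_diag_mem_N hA))

theorem projGroup_le (hM : M ≤ isom S.f) : sp.projGroup M ≤ isom sp.T.f := by
  rintro _ ⟨⟨A, B⟩, h, rfl⟩
  exact (sp.bd_mem_isom.1 (hM h)).1

end Split

end CfsgLib.Geometric.SympType
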