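import Cfsg.Agent.Lib.Geometric.SympType.Model
import Cfsg.Agent.Lib.Geometric.SympType.SplitDef

/-!
The dichotomy for overgroups of the normaliser of a system of any size, by induction from size eight.
-/

set_option autoImplicit false
set_option linter.unusedSectionVars false

namespace CfsgLib.Geometric.SympType

open CfsgLib.Geometric

variable {F : Type*} [Field F] [Fintype F]

/-- Transitivity of the normaliser on labels with equal value. -/
def TransitiveAt (F : Type*) [Field F] (k : ℕ) : Prop :=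
  ∀ (ι : Type) [Fintype ι] [DecidableEq ι] (S : Sys k ι F) (a b : L k), a ≠ 0 → b ≠ 0 →
    S.q a = S.q b → ∃ n ∈ S.N, S.sP n a = b

/-- The local step. -/
def LocalStep (F : Type*) [Field F] (k : ℕ) : Prop :=
  (∀ T : Sys k (K k) F, T.Dichotomy) → ∀ (ι : Type) [Fintype ι] [DecidableEq ι] (S : Sys (k + 1) ι F)
    (M : Subgroup (GL ι F)), S.N ≤ M → M ≤ isom S.f → M ≠ isom S.f → ∀ a, a ≠ 0 → S.q a = 0 →
      ∀ g ∈ M, ∀ c : F, (g : Matrix ι ι F) * S.P a = c • (S.P a * (g : Matrix ι ι F)) → g ∈ S.N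

theorem dichotomy_of_steps (h2 : (2 : F) ≠ 0)
    (hbase : ∀ (ι : Type) [Fintype ι] [DecidableEq ι] (S : Sys 3 ι F), S.Dichotomy)
    (htrans : ∀ k, 3 ≤ k → TransitiveAt F k) (hlocal : ∀ k, 3 ≤ k → LocalStep F k) :
    ∀ k, 3 ≤ k → ∀ (ι : Type) [Fintype ι] [DecidableEq ι] (S : Sys k ι F), S.Dichotomy := by
  intro k hk
  induction k, hk using Nat.le_induction with
  | base => exact hbase
  | succ k hk ih =>
    intro ι _ _ S M hNM hM
    by_cases hne : M = isom S.f
    · exact Or.inr hne
    left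
    exact S.le_N_of_local hNM (by omega) h2 hM (htrans (k + 1) (by omega) ι S)
      (hlocal k hk (ih (K k)) ι S M hNM hM hne)

end CfsgLib.Geometric.SympType
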