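import Cfsg.Agent.Lib.Geometric.SympType.Sys
import Cfsg.Agent.Lib.Geometric.SympType.Degree
import Cfsg.Agent.Lib.Geometric.PauliMax.OfData

/-!
An absolutely irreducible extraspecial group of order `2 ^ (1 + 2 k)` and of minus type inside `Sp_2m` gives a system
of minus type, with the same normaliser in `Sp_2m`.
-/

set_option autoImplicit false
set_option linter.unusedSectionVars false
set_option linter.style.haveILetI false

namespace CfsgLib.Geometric.SympType

open Cfsg.Geo CfsgLib.SmallDim CfsgLib.PauliFour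
open CfsgLib.Geometric.PauliMax (sgn sgn_zero sgn_one sgn_cases sgn_sq sgn_add sgn_injective sgn_unique
  zero_or_one)

variable {F : Type*} [Field F]

variable {m : ℕ}

local notation "I2" => (Fin m ⊕ Fin m)

local notation "𝕄" => Matrix (Fin m ⊕ Fin m) (Fin m ⊕ Fin m) F

/-- A scalar which preserves the symplectic form is a sign. -/
theorem mul_self_eq_one_of_isom [NeZero m] {X : 𝕄} {a : F}
    (hX : ∀ u v, Cfsg.sympForm m F (Matrix.mulVec X u) (Matrix.mulVec X v) = Cfsg.sympForm m F u v)
    (haX : ∀ u v, Cfsg.sympForm m F (Matrix.mulVec (a • X) u) (Matrix.mulVec (a • X) v) =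
      Cfsg.sympForm m F u v) : a * a = 1 := by
  let u : I2 → F := Pi.single (Sum.inr 0) 1
  let v : I2 → F := Pi.single (Sum.inl 0) 1
  have huv : Cfsg.sympForm m F u v = 1 := by
    simp [u, v, Cfsg.sympForm, Matrix.J]
  have h := haX u v
  have hsmul : ∀ (c : F) (p q : I2 → F),
      Cfsg.sympForm m F (c • p) (c • q) = c * c * Cfsg.sympForm m F p q := by
    intro c p q
    simp [Cfsg.sympForm, Matrix.mulVec_smul, smul_eq_mul, mul_assoc]
  rw [Matrix.smul_mulVec, Matrix.smul_mulVec, hsmul, hX, huv, mul_one] at h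
  exact h

/-- The data of minus type give a system. -/
theorem exists_sys [Fintype F] {k : ℕ} (hm : 1 < Fintype.card (Fin m ⊕ Fin m)) (h2 : (2 : F) ≠ 0)
    {R : Subgroup (GL I2 F)} (hR : IsSymplecticTypeGroup 2 R) (habs : ActsAbsolutelyIrreducibly (matrixSet R))
    (hle : R ≤ Cfsg.spGL m F) (hcard : Nat.card R = 2 ^ (1 + 2 * k)) (hZ : Nat.card (Subgroup.center R) = 2)
    (hminus : IsOfMinusType k R) :
    ∃ S : Sys k I2 F, S.f = Cfsg.sympForm m F ∧ subgroupNormalizer R ⊓ Cfsg.spGL m F = S.N := by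
  classical
  haveI : NeZero m := ⟨by rintro rfl; simp at hm⟩
  haveI : Nonempty I2 := ⟨Sum.inl 0⟩
  have hP := isPauli_of_sympType (ι := I2) hm hR habs
  have hinj : ∀ {s t : F}, s • (1 : 𝕄) = t • 1 → s = t := fun {s t} h =>
    smul_left_injective F (one_ne_zero (α := 𝕄)) h
  haveI : Finite R := inferInstance
  have hcen : ∀ z ∈ Subgroup.center R, z * z = 1 ∧ ∃ s : F, s * s = 1 ∧ mt z = s • 1 := by
    intro z hz
    have hzz : (⟨z, hz⟩ : Subgroup.center R) * ⟨z, hz⟩ = 1 := by
      rw [← pow_two, ← hZ]; exact pow_card_eq_one'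
    have hz2 : z * z = 1 := congrArg Subtype.val hzz
    obtain ⟨s, hs⟩ := hP.centraliser_scalar (M := mt z) (by
      rintro _ ⟨y, hy, rfl⟩
      exact congrArg (fun u : R => mt u) (Subgroup.mem_center_iff.1 hz ⟨y, hy⟩).symm)
    refine ⟨hz2, s, hinj (show _ = (1 : F) • (1 : 𝕄) from ?_), hs⟩
    have h := congrArg (fun u : R => mt u) hz2
    simp only [mt_mul, hs, Matrix.smul_mul, one_mul, smul_smul] at h
    rw [h, one_smul]; rfl
  obtain ⟨e, he, hev⟩ : ∃ e : R, e ∈ Subgroup.center R ∧ mt e = (-1 : F) • 1 := by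
    haveI : Nontrivial (Subgroup.center R) := by
      rw [← Finite.one_lt_card_iff_nontrivial, hZ]; norm_num
    obtain ⟨z, hz⟩ := exists_ne (1 : Subgroup.center R)
    obtain ⟨-, s, hs, hzs⟩ := hcen z z.2
    rcases mul_self_eq_one_iff.1 hs with h | h
    · exact absurd (Subtype.ext (Subtype.ext (Units.ext
        (show mt (z : R) = (1 : 𝕄) by rw [hzs, h, one_smul])))) hz
    · exact ⟨z, z.2, h ▸ hzs⟩
  letI : CommGroup (R ⧸ Subgroup.center R) :=
    { (inferInstance : Group (R ⧸ Subgroup.center R)) with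
      mul_comm := by
        have hsq : ∀ a : R ⧸ Subgroup.center R, a * a = 1 := by
          intro a
          induction a using QuotientGroup.induction_on with
          | H x => exact mk_sq hP x
        intro a b
        have ha : a⁻¹ = a := inv_eq_of_mul_eq_one_right (hsq a)
        have hb : b⁻¹ = b := inv_eq_of_mul_eq_one_right (hsq b)
        have hab : (a * b)⁻¹ = a * b := inv_eq_of_mul_eq_one_right (hsq _)
        rw [← hab, mul_inv_rev, ha, hb] }
  have h2q : ∀ x : Additive (R ⧸ Subgroup.center R), 2 • x = 0 := by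
    intro x
    rw [two_nsmul]
    change Additive.ofMul (x.toMul * x.toMul) = Additive.ofMul 1
    congr 1
    generalize x.toMul = a
    induction a using QuotientGroup.induction_on with
    | H y => exact mk_sq hP y
  letI : Module (ZMod 2) (Additive (R ⧸ Subgroup.center R)) := AddCommGroup.zmodModule h2q
  have hrank : Module.finrank (ZMod 2) (Additive (R ⧸ Subgroup.center R)) = 2 * k := by
    have h1 := Module.natCard_eq_pow_finrank (K := ZMod 2) (V := Additive (R ⧸ Subgroup.center R))
    have h3 : Nat.card (Additive (R ⧸ Subgroup.center R)) = 2 ^ (2 * k) := by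
      rw [Nat.card_congr Additive.toMul, card_lines_eq hP hR.pGroup h2,
        card_eq_two_pow hm hR habs h2 hcard hZ, two_mul, pow_add]
    rw [h3, Nat.card_zmod] at h1
    exact (Nat.pow_right_injective le_rfl h1).symm
  set φ := (Module.finBasisOfFinrankEq (ZMod 2) (Additive (R ⧸ Subgroup.center R)) hrank).equivFun
  let qq : L k → R ⧸ Subgroup.center R := fun v => (φ.symm v).toMul
  have hq0 : qq 0 = 1 := by
    show (φ.symm 0).toMul = 1
    rw [map_zero]
    rfl
  have hqadd : ∀ v w, qq (v + w) = qq v * qq w := fun v w => by simp [qq, map_add]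
  have hqinj : Function.Injective qq := fun v w h => φ.symm.injective (Additive.toMul.injective h)
  have hqsurj : Function.Surjective qq := fun a => ⟨φ (Additive.ofMul a), by simp [qq]⟩
  have hrep : ∀ v, ∃ x : R, QuotientGroup.mk x = qq v ∧ (v = 0 → x = 1) := by
    intro v
    by_cases hv : v = 0
    · exact ⟨1, by rw [hv, hq0]; rfl, fun _ => rfl⟩
    · exact ⟨(qq v).out, QuotientGroup.out_eq' _, fun h => absurd h hv⟩
  choose x hxq hx0 using hrep
  have hscal : ∀ {a b : R}, (QuotientGroup.mk a : R ⧸ Subgroup.center R) = QuotientGroup.mk b →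
      ∃ s : F, s * s = 1 ∧ mt b = s • mt a := by
    intro a b h
    obtain ⟨-, s, hs, hzs⟩ := hcen _ (QuotientGroup.eq.1 h)
    refine ⟨s, hs, ?_⟩
    rw [show mt b = mt a * mt (a⁻¹ * b) by rw [← mt_mul, mul_inv_cancel_left], hzs, Matrix.mul_smul, mul_one]
  let P : L k → 𝕄 := fun v => mt (x v)
  have hPne : ∀ v w, P v * P w ≠ 0 := fun v w => ((x v : GL I2 F) * (x w : GL I2 F)).ne_zero
  let β : L k → L k → ZMod 2 := fun v w => if P v * P w = P w * P v then 0 else 1
  have hβ : ∀ v w, P v * P w = sgn F (β v w) • (P w * P v) := by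
    intro v w
    by_cases h : P v * P w = P w * P v
    · simp only [β, if_pos h, sgn_zero, one_smul]; exact h
    · simp only [β, if_neg h, sgn_one, neg_one_smul]
      exact (hP.comm _ (x v).2 _ (x w).2).resolve_left h
  let qf : L k → ZMod 2 := fun v => if P v * P v = 1 then 0 else 1
  have hqf : ∀ v, P v * P v = sgn F (qf v) • 1 := by
    intro v
    by_cases h : P v * P v = 1
    · simp only [qf, if_pos h, sgn_zero, one_smul]; exact h
    · simp only [qf, if_neg h, sgn_one, neg_one_smul]
      exact (hP.sq _ (x v).2).resolve_left h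
  have hP0 : P 0 = 1 := by
    show mt (x 0) = 1
    rw [hx0 0 rfl]; rfl
  have hadd : ∀ v w, ∃ c : F, c * c = 1 ∧ P (v + w) = c • (P v * P w) := by
    intro v w
    obtain ⟨c, hc1, hc⟩ := hscal (a := x v * x w) (b := x (v + w))
      (by rw [QuotientGroup.mk_mul, hxq, hxq, hxq, hqadd])
    exact ⟨c, hc1, by simpa [P, mt_mul] using hc⟩
  have hβl : ∀ u v w, β (u + v) w = β u w + β v w := by
    intro u v w
    obtain ⟨c, -, hc⟩ := hadd u v
    refine sgn_unique h2 (hPne w (u + v)) (hβ (u + v) w) ?_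
    rw [sgn_add, hc, Matrix.smul_mul, mul_assoc, hβ v w, Matrix.mul_smul, ← mul_assoc, hβ u w,
      Matrix.smul_mul, mul_assoc, Matrix.mul_smul, smul_smul, smul_smul, smul_smul]
    congr 1
    ring
  have hβs : ∀ v w, β v w = β w v := by
    intro v w
    refine sgn_unique h2 (hPne w v) (hβ v w) ?_
    rcases sgn_cases (F := F) (β w v) with h | h <;> rw [h]
    · rw [one_smul, hβ w v, h, one_smul]
    · rw [hβ w v, h, smul_smul, neg_mul_neg, one_mul, one_smul]
  have hqfadd : ∀ v w, qf (v + w) = qf v + qf w + β v w := by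
    intro v w
    obtain ⟨c, hc1, hc⟩ := hadd v w
    have e1 : P v * P w * (P v * P w) = sgn F (β w v) • (P v * P v * (P w * P w)) := by
      rw [mul_assoc, ← mul_assoc (P w), hβ w v, smul_mul_assoc, mul_smul_comm, mul_assoc (P v) (P w),
        ← mul_assoc (P v) (P v)]
    apply sgn_injective h2
    apply hinj
    rw [← hqf, hc, Matrix.smul_mul, Matrix.mul_smul, smul_smul, hc1, one_smul, e1, hqf v, hqf w,
      smul_mul_assoc, one_mul, smul_smul, smul_smul, sgn_add, sgn_add, hβs w v]
    congr 1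
    ring
  let Bf : L k → (L k →ₗ[ZMod 2] ZMod 2) := fun v =>
    AddMonoidHom.toZModLinearMap 2
      (AddMonoidHom.mk' (β v) fun a b => by rw [hβs v, hβl, hβs a, hβs b])
  let B : L k →ₗ[ZMod 2] L k →ₗ[ZMod 2] ZMod 2 :=
    AddMonoidHom.toZModLinearMap 2
      (AddMonoidHom.mk' Bf fun a b => LinearMap.ext fun w => hβl a b w)
  have hB : ∀ v w, B v w = β v w := fun v w => rfl
  have hself : ∀ v, β v v = 0 := fun v => if_pos rfl
  have hnondeg : ∀ v, (∀ w, B v w = 0) → v = 0 := by
    intro v hv
    have hcv : x v ∈ Subgroup.center R := by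
      refine Subgroup.mem_center_iff.2 fun y => Subtype.ext (Units.ext ?_)
      obtain ⟨w, hw⟩ := hqsurj (QuotientGroup.mk y)
      obtain ⟨c, -, hc⟩ := hscal (a := x w) (b := y) (by rw [hxq, hw])
      show mt y * mt (x v) = mt (x v) * mt y
      have h0 : β v w = 0 := (hB v w).symm.trans (hv w)
      have := hβ v w
      rw [h0, sgn_zero, one_smul] at this
      rw [hc, Matrix.smul_mul, Matrix.mul_smul]
      exact congrArg _ this.symm
    apply hqinj
    rw [hq0, ← hxq, QuotientGroup.eq_one_iff]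
    exact hcv
  have hmin : ∀ W : Submodule (ZMod 2) (L k), (∀ x ∈ W, qf x = 0) → Module.finrank (ZMod 2) W < k := by
    intro W hW
    let f : W → L k := Subtype.val
    have hfadd : ∀ s t, f (s + t) = f s + f t := fun s t => rfl
    have hfinj : Function.Injective f := Subtype.val_injective
    have hqf0 : ∀ t, qf (f t) = 0 := fun t => hW _ t.2
    have hBf : ∀ s t, B (f s) (f t) = 0 := by
      intro s t
      have h := hqfadd (f s) (f t)
      rw [← hfadd, hqf0, hqf0, hqf0, zero_add, zero_add] at h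
      exact h.symm
    have hel : ∀ {y : R} {t}, QuotientGroup.mk y = qq (f t) →
        ∃ s : F, s * s = 1 ∧ mt y = s • P (f t) := fun {y t} h =>
      hscal (a := x (f t)) (b := y) (by rw [hxq, h])
    let A : Subgroup R :=
      { carrier := {y | ∃ t, QuotientGroup.mk y = qq (f t)}
        one_mem' := ⟨0, by
          rw [show f 0 = 0 from rfl, hq0]; rfl⟩
        mul_mem' := by
          rintro y y' ⟨t, ht⟩ ⟨t', ht'⟩
          exact ⟨t + t', by rw [QuotientGroup.mk_mul, ht, ht', ← hqadd, hfadd]⟩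
        inv_mem' := by
          rintro y ⟨t, ht⟩
          refine ⟨t, ?_⟩
          rw [QuotientGroup.mk_inv, ← ht, inv_eq_iff_mul_eq_one, ← QuotientGroup.mk_mul]
          exact mk_sq hP y }
    have hAc : IsMulCommutative A := by
      refine ⟨⟨fun y y' => ?_⟩⟩
      obtain ⟨t, ht⟩ := y.2
      obtain ⟨t', ht'⟩ := y'.2
      obtain ⟨s, -, hs⟩ := hel ht
      obtain ⟨s', -, hs'⟩ := hel ht'
      refine Subtype.ext (Subtype.ext (Units.ext ?_))
      show mt (y : R) * mt (y' : R) = mt (y' : R) * mt (y : R)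
      have h0 : β (f t) (f t') = 0 := (hB _ _).symm.trans (hBf t t')
      have := hβ (f t) (f t')
      rw [h0, sgn_zero, one_smul] at this
      rw [hs, hs', Matrix.smul_mul, Matrix.mul_smul, smul_smul, Matrix.smul_mul, Matrix.mul_smul, smul_smul,
        this, mul_comm s]
    have hAs : ∀ y ∈ A, y * y = 1 := by
      rintro y ⟨t, ht⟩
      obtain ⟨s, hs1, hs⟩ := hel ht
      refine Subtype.ext (Units.ext ?_)
      show mt y * mt y = 1
      rw [hs, Matrix.smul_mul, Matrix.mul_smul, smul_smul, hs1, one_smul, hqf, hqf0, sgn_zero, one_smul]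
    have hcardA : 2 ^ (Module.finrank (ZMod 2) W + 1) ≤ Nat.card A := by
      have hle16 := Nat.card_le_card_of_injective
        (fun p : Subgroup.center R × W => (⟨(p.1 : R) * x (f p.2), p.2, by
          rw [QuotientGroup.mk_mul, (QuotientGroup.eq_one_iff _).2 p.1.2, one_mul, hxq]⟩ : A))
        (by
          rintro ⟨z, t⟩ ⟨z', t'⟩ h
          have h' : (z : R) * x (f t) = (z' : R) * x (f t') := congrArg Subtype.val h
          have hm := congrArg (QuotientGroup.mk : R → R ⧸ Subgroup.center R) h'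
          rw [QuotientGroup.mk_mul, QuotientGroup.mk_mul, (QuotientGroup.eq_one_iff _).2 z.2,
            (QuotientGroup.eq_one_iff _).2 z'.2, one_mul, one_mul, hxq, hxq] at hm
          have ht : t = t' := hfinj (hqinj hm)
          subst ht
          exact Prod.ext (Subtype.ext (mul_right_cancel h')) rfl)
      rw [Nat.card_prod, hZ, Module.natCard_eq_pow_finrank (K := ZMod 2) (V := W), Nat.card_zmod,
        ← pow_succ'] at hle16
      exact hle16
    have h := lt_of_le_of_lt hcardA (hminus A hAc hAs)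
    have := (Nat.pow_lt_pow_iff_right one_lt_two).1 h
    omega
  have hli : LinearIndependent F P := by
    choose c hc0 hc using fun v => eq_smul_rep hP (x v)
    have h := ((linearIndependent_lines hP hR.pGroup h2).comp qq hqinj).units_smul fun v => Units.mk0 (c v) (hc0 v)
    convert h using 1
    funext v
    show mt (x v) = _
    rw [show mt (x v) = _ from hc v, hxq]
    rfl
  have hisom : ∀ v u w, Cfsg.sympForm m F (Matrix.mulVec (P v) u) (Matrix.mulVec (P v) w) =
      Cfsg.sympForm m F u w := fun v => hle (x v).2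
  refine ⟨⟨Cfsg.sympForm m F, isSymplecticForm_sympForm m F, P, qf, B, fun v w => by rw [hqfadd, hB],
    hnondeg, hmin, hP0, hqf, fun v w => by rw [hB]; exact hβ v w, fun v w => ?_, hli,
    card_eq_two_pow hm hR habs h2 hcard hZ, hisom⟩, rfl, ?_⟩
  · obtain ⟨c, -, hc⟩ := hadd v w
    exact ⟨c, hc⟩
  -- the normalisers agree
  refine le_antisymm (fun y hy => ?_) (fun g hg => ?_)
  · obtain ⟨hy, hysp⟩ := hy
    refine ⟨hysp, fun v => ?_⟩
    have hy' := (Subgroup.mem_normalizer_iff.1 hy (x v : GL I2 F)).1 (x v).2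
    set r : R := ⟨_, hy'⟩ with hr
    obtain ⟨w, hw⟩ := hqsurj (QuotientGroup.mk r)
    obtain ⟨c, -, hc⟩ := hscal (a := x w) (b := r) (by rw [hxq, hw])
    refine ⟨w, c, ?_⟩
    show (y : 𝕄) * mt (x v) = c • (mt (x w) * (y : 𝕄))
    rw [← Matrix.smul_mul, ← hc]
    show (y : 𝕄) * mt (x v) = ((y * (x v : GL I2 F) * y⁻¹ : GL I2 F) : 𝕄) * y
    rw [Units.val_mul, Units.val_mul, mul_assoc, Units.inv_mul, mul_one]
  · obtain ⟨hgsp, hgp⟩ := hg
    refine ⟨Subgroup.mem_normalizer_fintype fun z hz => ?_, hgsp⟩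
    obtain ⟨v, hv⟩ := hqsurj (QuotientGroup.mk (⟨z, hz⟩ : R))
    obtain ⟨a, -, ha⟩ := hscal (a := x v) (b := ⟨z, hz⟩) (by rw [hxq, hv])
    obtain ⟨w, c, hw⟩ := hgp v
    change (g : 𝕄) * mt (x v) = c • (mt (x w) * (g : 𝕄)) at hw
    set lam := a * c
    have hval : ((g * z * g⁻¹ : GL I2 F) : 𝕄) = lam • mt (x w) := by
      rw [Units.val_mul, Units.val_mul, show (z : 𝕄) = _ from ha, Matrix.mul_smul,
        Matrix.smul_mul, hw, Matrix.smul_mul, mul_assoc, Units.mul_inv, mul_one, smul_smul]
    have hsp : g * z * g⁻¹ ∈ Cfsg.spGL m F :=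
      mul_mem (mul_mem hgsp (hle hz)) (inv_mem hgsp)
    have hlam : lam * lam = 1 := mul_self_eq_one_of_isom (hisom w) (by
      intro u u'
      show Cfsg.sympForm m F (Matrix.mulVec (lam • mt (x w)) u) (Matrix.mulVec (lam • mt (x w)) u') = _
      rw [← hval]
      exact hsp u u')
    obtain ⟨s, hs⟩ : ∃ s : R, mt s = lam • 1 := by
      rcases mul_self_eq_one_iff.1 hlam with h | h <;> rw [h]
      · exact ⟨1, by rw [one_smul]; rfl⟩
      · exact ⟨e, hev⟩
    have : g * z * g⁻¹ = ((s * x w : R) : GL I2 F) := Units.ext (by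
      rw [hval]
      show _ = mt (s * x w)
      rw [mt_mul, hs, Matrix.smul_mul, one_mul])
    rw [SetLike.mem_coe, this]
    exact (s * x w).2

end CfsgLib.Geometric.SympType
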